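import Cfsg.Agent.TensorMax.Adjoint

/-!
A non-scalar coefficient gives all elementary transvections.
-/

set_option autoImplicit false

namespace CfsgLib.TensorMax

open Matrix Module

variable {F : Type*} [Field F] {ι κ : Type} [Fintype ι] [DecidableEq ι] [Fintype κ] [DecidableEq κ]

/-- The elementary map sending the `(j, b)` coordinate to `(i, a)`. -/
def elemMap (i : ι) (a : κ) (j : ι) (b : κ) (c : F) : Matrix ι κ F →ₗ[F] Matrix ι κ F where
  toFun X := (c * X j b) • Matrix.single i a 1
  map_add' X Y := by rw [Matrix.add_apply, mul_add, add_smul]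
  map_smul' d X := by
    rw [Matrix.smul_apply, RingHom.id_apply, smul_smul, smul_eq_mul]
    congr 1; ring

@[simp] lemma elemMap_apply (i : ι) (a : κ) (j : ι) (b : κ) (c : F) (X : Matrix ι κ F) :
    elemMap i a j b c X = (c * X j b) • Matrix.single i a 1 := rfl

lemma elemMap_mul_eq_zero {i j k l : ι} {a b p q : κ} (h : ¬(i = l ∧ a = q)) (c d : F)
    (X : Matrix ι κ F) : elemMap k p l q d (elemMap i a j b c X) = 0 := by
  simp [h, Matrix.single_apply]

lemma elemMap_comp (i k j : ι) (a p b : κ) (c d : F) (X : Matrix ι κ F) :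
    elemMap i a k p c (elemMap k p j b d X) = elemMap i a j b (c * d) X := by
  simp [mul_assoc]

lemma rootMap_single (i j : ι) (a b : κ) (c : F) (X : Matrix ι κ F) :
    rootMap (Matrix.single i j (1 : F)) (Pi.single a 1) (Pi.single b c) X
      = elemMap i a j b c X := by
  have h1 : X *ᵥ Pi.single b c = fun k => c * X k b := by
    ext k; simp [mulVec, dotProduct, Pi.single_apply, mul_comm]
  have h2 : ∀ y : ι → F, Matrix.single i j (1 : F) *ᵥ y = y j • Pi.single i 1 := by
    intro y; ext k; simp [mulVec, dotProduct, Matrix.single_apply, Pi.single_apply, eq_comm]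
    split_ifs <;> simp_all
  rw [rootMap_apply, h1, h2, pure, smul_vecMulVec, ← Matrix.single_eq_single_vecMulVec_single]
  rfl

variable {M : Subgroup (Matrix ι κ F ≃ₗ[F] Matrix ι κ F)}

/-- Transvections move a vector to another. -/
lemma exists_transv_vec (u v : ι → F) (hu : u ≠ 0)
    (hv : v ∉ Submodule.span F ({u} : Set (ι → F))) :
    ∃ x y : ι → F, y ⬝ᵥ x = 0 ∧ (1 + vecMulVec x y) *ᵥ u = v := by
  have hd : u ∉ Submodule.span F ({v - u} : Set (ι → F)) := by
    intro hm
    obtain ⟨c, hc⟩ := Submodule.mem_span_singleton.1 hm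
    rcases eq_or_ne c 0 with rfl | hc0
    · exact hu (by simpa using hc.symm)
    · refine hv (Submodule.mem_span_singleton.2 ⟨c⁻¹ + 1, ?_⟩)
      rw [add_smul, one_smul]
      nth_rewrite 1 [← hc]
      rw [inv_smul_smul₀ hc0, sub_add_cancel]
  obtain ⟨χ, h1, h2⟩ := exists_covec hd
  refine ⟨v - u, χ, h2 _ (Submodule.mem_span_singleton_self _), ?_⟩
  rw [add_mulVec, one_mulVec, vecMulVec_mulVec, h1]
  simp

/-- An invariant space with a rank one square-zero matrix contains all off-diagonal units. -/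
lemma single_mem (T : Submodule F (Matrix ι ι F))
    (hinv : ∀ τ ∈ T, ∀ a a' : Matrix ι ι F, a.det = 1 → a' * a = 1 → a * τ * a' ∈ T)
    {u v : ι → F} (hu : u ≠ 0) (hv : v ≠ 0) (hvu : v ⬝ᵥ u = 0) (h : vecMulVec u v ∈ T)
    {i j : ι} (hij : i ≠ j) : Matrix.single i j (1 : F) ∈ T := by
  have hconj : ∀ (x y : ι → F), y ⬝ᵥ x = 0 → ∀ (p q : ι → F), vecMulVec p q ∈ T →
      vecMulVec ((1 + vecMulVec x y) *ᵥ p) (q ᵥ* (1 - vecMulVec x y)) ∈ T := by
    intro x y hxy p q hpq
    have hsq : vecMulVec x y * vecMulVec x y = 0 := by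
      rw [vecMulVec_mul_vecMulVec, hxy, zero_smul]
      ext k l; simp [vecMulVec_apply]
    have := hinv _ hpq (1 + vecMulVec x y) (1 - vecMulVec x y)
      (by rw [det_one_add_vecMulVec, hxy, add_zero])
      (by rw [sub_mul, one_mul, mul_add, mul_one, hsq, add_zero, add_sub_cancel_right])
    rwa [mul_vecMulVec, vecMulVec_mul] at this
  -- move the vector
  obtain ⟨q, hq, hqi, hqm⟩ : ∃ q, q ≠ 0 ∧ q ⬝ᵥ Pi.single i (1 : F) = 0 ∧
      vecMulVec (Pi.single i (1 : F)) q ∈ T := by
    by_cases hm : (Pi.single i (1 : F) : ι → F) ∈ Submodule.span F ({u} : Set (ι → F))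
    · obtain ⟨c, hc⟩ := Submodule.mem_span_singleton.1 hm
      refine ⟨v, hv, by rw [← hc, dotProduct_smul, hvu, smul_zero], ?_⟩
      rw [← hc, smul_vecMulVec]
      exact T.smul_mem c h
    · obtain ⟨x, y, hxy, hxu⟩ := exists_transv_vec u _ hu hm
      have hinvm : (1 - vecMulVec x y) * (1 + vecMulVec x y) = (1 : Matrix ι ι F) := by
        rw [sub_mul, one_mul, mul_add, mul_one, vecMulVec_mul_vecMulVec, hxy, zero_smul]
        ext k l; simp [vecMulVec_apply]
      refine ⟨v ᵥ* (1 - vecMulVec x y), fun h0 => hv ?_, ?_, ?_⟩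
      · rw [← vecMul_one v, ← hinvm, ← vecMul_vecMul, h0, zero_vecMul]
      · rw [← hxu, ← dotProduct_mulVec, mulVec_mulVec, hinvm, one_mulVec, hvu]
      · rw [← hxu]; exact hconj x y hxy u v h
  rw [Matrix.single_eq_single_vecMulVec_single]
  -- move the covector
  by_cases hm : (Pi.single j (1 : F) : ι → F) ∈ Submodule.span F ({q} : Set (ι → F))
  · obtain ⟨c, hc⟩ := Submodule.mem_span_singleton.1 hm
    rw [← hc, vecMulVec_smul]
    exact T.smul_mem c hqm
  · have hd : q ∉ Submodule.span F ({Pi.single j (1 : F) - q} : Set (ι → F)) := by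
      intro hm'
      obtain ⟨c, hc⟩ := Submodule.mem_span_singleton.1 hm'
      rcases eq_or_ne c 0 with rfl | hc0
      · exact hq (by simpa using hc.symm)
      · refine hm (Submodule.mem_span_singleton.2 ⟨c⁻¹ + 1, ?_⟩)
        rw [add_smul, one_smul]
        nth_rewrite 1 [← hc]
        rw [inv_smul_smul₀ hc0, sub_add_cancel]
    obtain ⟨z, e1, e2⟩ := exists_covec hd
    set d := Pi.single j (1 : F) - q with hd'
    have hdi : d ⬝ᵥ Pi.single i (1 : F) = 0 := by
      rw [hd', sub_dotProduct, hqi, dotProduct_single, Pi.single_eq_of_ne hij, zero_mul, sub_zero]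
    have hzd : (-d) ⬝ᵥ z = 0 := by
      rw [neg_dotProduct, dotProduct_comm, e2 _ (Submodule.mem_span_singleton_self _), neg_zero]
    have := hconj z (-d) hzd _ _ hqm
    rw [add_mulVec, one_mulVec, vecMulVec_mulVec, neg_dotProduct, hdi, neg_zero, MulOpposite.op_zero,
      zero_smul, add_zero, vecMul_sub, vecMul_one, vecMul_vecMulVec, dotProduct_comm q z, e1,
      one_smul, sub_neg_eq_add, hd', add_sub_cancel] at this
    exact this

/-- A non-scalar coefficient gives every elementary transvection. -/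
theorem inM_elemMap [Finite F] (hM : ContainsSL M) (hκ : 3 ≤ Fintype.card κ)
    (hq : 3 ≤ Nat.card F ∨ 3 ≤ Fintype.card ι) {τ : Matrix ι ι F} (hτ : IsCoeff M τ)
    (hns : ∀ c : F, τ ≠ c • 1) (i : ι) (a : κ) (j : ι) (b : κ) (c : F) (hne : ¬(i = j ∧ a = b)) :
    InM M (elemMap i a j b c) := by
  set T : Submodule F (Matrix ι ι F) :=
    { carrier := {σ | IsCoeff M σ}
      add_mem' := fun h h' => h.add h'
      zero_mem' := by simpa using (isCoeff_one hM).smul 0
      smul_mem' := fun d σ h => h.smul d }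
  have hinv : ∀ σ ∈ T, ∀ p p' : Matrix ι ι F, p.det = 1 → p' * p = 1 → p * σ * p' ∈ T :=
    fun σ h p p' hp hp' => IsCoeff.conj hM h hp hp'
  obtain ⟨u, v, hu, hv, hvu, huv⟩ := exists_rankOne hq T hinv (τ := τ) hτ hns
  have hgen : ∀ (i j : ι) (a b : κ) (c : F), i ≠ j → a ≠ b → InM M (elemMap i a j b c) :=
    fun i j a b c hij hab => ((single_mem T hinv hu hv hvu huv hij :
      IsCoeff M (Matrix.single i j (1 : F))) (Pi.single a 1) (Pi.single b c)
      (by rw [dotProduct_single, Pi.single_eq_of_ne hab.symm, zero_mul])).congr fun X =>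
        (rootMap_single i j a b c X).symm
  have hcomm : ∀ (i k j : ι) (a p b : κ) (c : F), ¬(i = k ∧ a = p) → ¬(k = j ∧ p = b) →
      ¬(i = j ∧ a = b) → InM M (elemMap i a k p c) → InM M (elemMap k p j b (1 : F)) →
      InM M (elemMap i a j b c) := by
    intro i k j a p b c h1 h2 h3 hN hN'
    exact (hN.comm hN' (elemMap_mul_eq_zero h1 c c) (elemMap_mul_eq_zero h2 1 1)
      (elemMap_mul_eq_zero h3 c 1)).congr fun X => by
        rw [LinearMap.comp_apply, elemMap_comp, mul_one]
  have hthird : ∀ a b : κ, ∃ p, p ≠ a ∧ p ≠ b := by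
    intro a b
    obtain ⟨p, hp⟩ := Finset.exists_mem_notMem_of_card_lt_card (s := ({a, b} : Finset κ))
      (t := Finset.univ) (lt_of_le_of_lt Finset.card_le_two (by rw [Finset.card_univ]; omega))
    exact ⟨p, by simpa using hp.2⟩
  have hsame : ∀ (i : ι) (a b : κ) (c : F), a ≠ b → InM M (elemMap i a i b c) := by
    intro i a b c hab
    have : Nontrivial ι := by
      refine Fintype.one_lt_card_iff_nontrivial.1 ?_
      by_contra hcard
      have : Subsingleton ι := Fintype.card_le_one_iff_subsingleton.1 (not_lt.1 hcard)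
      obtain ⟨k, hk⟩ := Function.ne_iff.1 hu
      refine hv (funext fun l => ?_)
      rw [Subsingleton.elim l k]
      rw [dotProduct, Fintype.sum_subsingleton _ k] at hvu
      exact (mul_eq_zero.1 hvu).resolve_right hk
    obtain ⟨k, hk⟩ := exists_ne i
    obtain ⟨p, hpa, hpb⟩ := hthird a b
    exact hcomm i k i a p b c (fun h => hk h.1.symm) (fun h => hk h.1) (fun h => hab h.2)
      (hgen i k a p c hk.symm hpa.symm) (hgen k i p b 1 hk hpb)
  rcases eq_or_ne a b with rfl | hab
  · obtain ⟨p, hpa, -⟩ := hthird a a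
    exact hcomm i i j a p a c (fun h => hpa h.2.symm) (fun h => hpa h.2) hne
      (hsame i a p c hpa.symm) (hgen i j p a 1 (fun h => hne ⟨h, rfl⟩) hpa)
  · rcases eq_or_ne i j with rfl | hij
    · exact hsame i a b c hab
    · exact hgen i j a b c hij hab

end CfsgLib.TensorMax
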