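import Cfsg.Agent.TensorMax.Intersection

/-!
With only scalar coefficients, every element of `M` carries members to members.
-/

set_option autoImplicit false

namespace CfsgLib.TensorMax

open Matrix Module

variable {F : Type*} [Field F] {ι κ : Type} [Fintype ι] [DecidableEq ι] [Fintype κ] [DecidableEq κ]
variable {M : Subgroup (Matrix ι κ F ≃ₗ[F] Matrix ι κ F)}

/-- The range of a transvection fixing a member pointwise, and complementary to it, is a member. -/
lemma exists_range_le_memb [Nonempty ι] (hM : ContainsSL M) (hκ : 3 ≤ Fintype.card κ)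
    (hsc : OnlyScalars M) {N : Matrix ι κ F →ₗ[F] Matrix ι κ F} (hN : InM M N)
    (hsq : ∀ X, N (N X) = 0) (hrk : finrank F (LinearMap.range N) = Fintype.card ι) {w₀ : κ → F}
    (hw₀ : w₀ ≠ 0) (hk : ∀ u, N (pure u w₀) = 0) (hdis : LinearMap.range N ⊓ memb w₀ = ⊥) :
    ∃ w, w ≠ 0 ∧ LinearMap.range N ≤ memb w := by
  obtain ⟨e, he, hey⟩ := id hN
  obtain ⟨η, hη⟩ := exists_dual hw₀
  have hA : ∀ u, e (pure u w₀) = pure ((LinearMap.id : (ι → F) →ₗ[F] (ι → F)) u) w₀ := fun u => by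
    rw [hey, hk, add_zero]; rfl
  -- the covector through which `N` acts modulo the member
  have hδ : ∀ φ : κ → F, w₀ ⬝ᵥ φ = 0 →
      ∃ δ, w₀ ⬝ᵥ δ = 0 ∧ ∀ X, N X *ᵥ φ = X *ᵥ δ := by
    intro φ hφ
    obtain ⟨ψ, hψ, hψe⟩ := exists_orth_of_stab hM hκ hsc he hw₀ hA hφ
    refine ⟨ψ - φ, by rw [dotProduct_sub, hψ, hφ, sub_zero], fun X => ?_⟩
    rw [mulVec_sub, show X *ᵥ ψ = e X *ᵥ φ from (hψe X).symm, hey, add_mulVec, add_sub_cancel_left]
  choose! δ hδ₀ hδ using hδ
  obtain ⟨φ₁, hφ₁, hne⟩ : ∃ φ, w₀ ⬝ᵥ φ = 0 ∧ δ φ ≠ 0 := by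
    by_contra! h
    have hle : LinearMap.range N ≤ memb w₀ := by
      rintro _ ⟨X, rfl⟩
      exact mem_memb_of_forall_orth hw₀ fun φ hφ => by rw [hδ φ hφ, h φ hφ, mulVec_zero]
    rw [inf_eq_left.2 hle] at hdis
    rw [hdis, finrank_bot] at hrk
    exact Fintype.card_ne_zero hrk.symm
  set γ := δ φ₁
  have hprop : ∀ φ, w₀ ⬝ᵥ φ = 0 → ∃ c : F, δ φ = c • γ := by
    intro φ hφ
    by_contra! hc
    have hnm : δ φ ∉ Submodule.span F ({γ} : Set (κ → F)) := fun hm => by
      obtain ⟨c, hc'⟩ := Submodule.mem_span_singleton.1 hm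
      exact hc c hc'.symm
    have hnm' : γ ∉ Submodule.span F ({δ φ} : Set (κ → F)) := fun hm => by
      obtain ⟨c, hc'⟩ := Submodule.mem_span_singleton.1 hm
      rcases eq_or_ne c 0 with rfl | hc0
      · exact hne (by rw [← hc', zero_smul])
      · exact hnm (Submodule.mem_span_singleton.2 ⟨c⁻¹, by rw [← hc', inv_smul_smul₀ hc0]⟩)
    obtain ⟨b, hb, hb'⟩ := exists_covec hnm
    obtain ⟨b₁, hb₁, hb₁'⟩ := exists_covec hnm'
    set P : LinearMap.range N →ₗ[F] (ι → F) × (ι → F) :=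
      ((colL φ₁).prod (colL φ)) ∘ₗ (LinearMap.range N).subtype
    have hsurj : Function.Surjective P := by
      rintro ⟨u, u'⟩
      refine ⟨⟨N (pure u b₁ + pure u' b), LinearMap.mem_range_self _ _⟩, Prod.ext ?_ ?_⟩
      · change N (pure u b₁ + pure u' b) *ᵥ φ₁ = u
        rw [hδ φ₁ hφ₁, add_mulVec, pure_mulVec, pure_mulVec, hb₁,
          hb' _ (Submodule.mem_span_singleton_self _), one_smul, zero_smul, add_zero]
      · change N (pure u b₁ + pure u' b) *ᵥ φ = u'
        rw [hδ φ hφ, add_mulVec, pure_mulVec, pure_mulVec, hb,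
          hb₁' _ (Submodule.mem_span_singleton_self _), one_smul, zero_smul, zero_add]
    have h := LinearMap.finrank_le_finrank_of_injective (f := (LinearMap.range P).subtype)
      (Submodule.injective_subtype _)
    have h2 := LinearMap.finrank_range_le P
    rw [LinearMap.range_eq_top.2 hsurj, finrank_top, Module.finrank_prod, Module.finrank_pi,
      hrk] at h2
    have := Fintype.card_pos (α := ι)
    omega
  choose! c hc using hprop
  obtain ⟨b, hb⟩ := exists_dual hne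
  rw [dotProduct_comm] at hb
  -- `N` factors through `X ↦ X γ`
  have hfac : ∀ X, N X = N (pure (X *ᵥ γ) b) := fun X => by
    refine sub_eq_zero.1 ?_
    rw [← map_sub]
    refine (Submodule.mem_bot F).1 (hdis ▸ Submodule.mem_inf.2 ⟨LinearMap.mem_range_self _ _,
      mem_memb_of_forall_orth hw₀ fun φ hφ => ?_⟩)
    rw [hδ φ hφ, hc φ hφ, mulVec_smul, sub_mulVec, pure_mulVec, hb, one_smul, sub_self, smul_zero]
  have hγw : w₀ ⬝ᵥ γ = 0 := hδ₀ φ₁ hφ₁
  -- the vector giving the range modulo the member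
  set w₁ : κ → F := fun j => c (Pi.single j 1 - w₀ j • η)
  have hdec : ∀ u, N (pure u b) = pure u w₁ + pure (N (pure u b) *ᵥ η) w₀ := fun u => by
    refine eq_pure_add_pure hη fun j => ?_
    rw [hδ _ (single_sub_orth hη j), hc _ (single_sub_orth hη j), mulVec_smul, pure_mulVec, hb,
      one_smul]
  have hzero : ∀ X, N X *ᵥ γ = 0 := fun X => by
    have h := hδ φ₁ hφ₁ (N X)
    rw [hsq, zero_mulVec] at h
    exact h.symm
  have hw₁ : w₁ ⬝ᵥ γ = 0 := by
    obtain ⟨u, hu⟩ := exists_ne (0 : ι → F)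
    have h := hzero (pure u b)
    rw [hdec, add_mulVec, pure_mulVec, pure_mulVec, hγw, zero_smul, add_zero] at h
    exact (smul_eq_zero.1 h).resolve_right hu
  -- remove the root element along `w₁`
  have hR := (inM_one hM hw₁ (ι := ι)).neg (rootMap_sq 1 hw₁)
  have hdiff := hN.add hR fun X => by
    rw [LinearMap.neg_apply, map_neg, rootMap_apply, one_mulVec, hfac, pure_mulVec, hw₁, zero_smul,
      pure_zero_left, map_zero, neg_zero]
  have heq : ∀ X, (N + -rootMap (1 : Matrix ι ι F) w₁ γ) X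
      = pure (N (pure (X *ᵥ γ) b) *ᵥ η) w₀ := fun X => by
    rw [LinearMap.add_apply, LinearMap.neg_apply, rootMap_apply, one_mulVec, hfac X, hdec,
      ← hdec (X *ᵥ γ)]
    conv_lhs => rw [hdec (X *ᵥ γ)]
    abel
  obtain ⟨γ₂, -, hγ₂⟩ := eq_rootMap hM hκ hsc hdiff hw₀
    (fun X => by rw [heq]; exact pure_mem_memb _ _)
    (fun u => by rw [heq, pure_mulVec, hγw, zero_smul, pure_zero_left, map_zero, zero_mulVec,
      pure_zero_left])
  have hscal : ∀ u, N (pure u b) = pure u (w₁ + (b ⬝ᵥ γ₂) • w₀) := fun u => by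
    have h := hγ₂ (pure u b)
    rw [heq, pure_mulVec, hb, one_smul, pure_mulVec] at h
    rw [hdec u, pureL_injective hw₀ h]
    ext i j
    simp [pure, vecMulVec_apply]
    ring
  refine ⟨w₁ + (b ⬝ᵥ γ₂) • w₀, fun h0 => ?_, ?_⟩
  · have hle : LinearMap.range N ≤ ⊥ := by
      rintro _ ⟨X, rfl⟩
      rw [Submodule.mem_bot, hfac, hscal, h0, pure_zero_right]
    rw [le_bot_iff] at hle
    rw [hle, finrank_bot] at hrk
    exact Fintype.card_ne_zero hrk.symm
  · rintro _ ⟨X, rfl⟩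
    rw [hfac, hscal]
    exact pure_mem_memb _ _

lemma range_conj_le (N : Matrix ι κ F →ₗ[F] Matrix ι κ F) (g : Matrix ι κ F ≃ₗ[F] Matrix ι κ F) :
    LinearMap.range ((g : Matrix ι κ F →ₗ[F] Matrix ι κ F) ∘ₗ N ∘ₗ
      (g.symm : Matrix ι κ F →ₗ[F] Matrix ι κ F)) = (LinearMap.range N).map
        (g : Matrix ι κ F →ₗ[F] Matrix ι κ F) := by
  rw [LinearMap.range_comp, LinearMap.range_comp_of_range_eq_top _ g.symm.range]

lemma range_rootMap_one {w ψ : κ → F} (hψ : ψ ≠ 0) :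
    LinearMap.range (rootMap (1 : Matrix ι ι F) w ψ) = memb w := by
  refine le_antisymm ?_ fun X hX => ?_
  · rintro _ ⟨X, rfl⟩; exact pure_mem_memb _ _
  · obtain ⟨u, rfl⟩ := mem_memb.1 hX
    obtain ⟨b, hb⟩ := exists_dual hψ
    exact ⟨pure u b, by rw [rootMap_apply, one_mulVec, pure_mulVec, dotProduct_comm, hb, one_smul]⟩

/-- The image of a member that meets a member is a member. -/
lemma map_memb_eq_of_inf_ne_bot [Nonempty ι] (hM : ContainsSL M) (hκ : 3 ≤ Fintype.card κ)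
    (hικ : Fintype.card ι < Fintype.card κ) (hsc : OnlyScalars M) (k : ℕ) :
    ∀ h ∈ M, ∀ v w : κ → F, v ≠ 0 → w ≠ 0 →
      Fintype.card ι ≤ finrank F ↥((memb v).map
        (h : Matrix ι κ F →ₗ[F] Matrix ι κ F) ⊓ memb w) + k →
      (memb v).map (h : Matrix ι κ F →ₗ[F] Matrix ι κ F) ⊓ memb w ≠ ⊥ →
      (memb v).map (h : Matrix ι κ F →ₗ[F] Matrix ι κ F) = memb w := by
  have hdim : ∀ (h : Matrix ι κ F ≃ₗ[F] Matrix ι κ F) (v : κ → F), v ≠ 0 →
      finrank F ((memb v).map (h : Matrix ι κ F →ₗ[F] Matrix ι κ F)) = Fintype.card ι := by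
    intro h v hv
    rw [LinearEquiv.finrank_map_eq, finrank_memb hv]
  induction k with
  | zero =>
    intro h _ v w hv hw hle _
    have h1 := Submodule.finrank_mono (inf_le_left (a := (memb v).map
      (h : Matrix ι κ F →ₗ[F] Matrix ι κ F)) (b := memb w))
    rw [hdim h v hv] at h1
    have h2 := Submodule.eq_of_le_of_finrank_le
      (inf_le_left (a := (memb v).map (h : Matrix ι κ F →ₗ[F] Matrix ι κ F)) (b := memb w))
      (by rw [hdim h v hv]; omega)
    exact eq_memb_of_le (by rw [hdim h v hv]) (inf_eq_left.1 h2) hw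
  | succ k ih =>
    intro h hh v w hv hw hle hne
    set S' := (memb v).map (h : Matrix ι κ F →ₗ[F] Matrix ι κ F) with hS'
    by_contra hneq
    obtain ⟨u, hu, huw⟩ : ∃ u ∈ S', u ∉ memb w := SetLike.not_le_iff_exists.1 fun hle' =>
      hneq (eq_memb_of_le (by rw [hdim h v hv]) hle' hw)
    -- a root element along `w` sending `u` into the intersection
    obtain ⟨ψ, hψ, hwψ, hψu⟩ : ∃ ψ : κ → F, ψ ≠ 0 ∧ w ⬝ᵥ ψ = 0 ∧
        pure (u *ᵥ ψ) w ∈ S' ⊓ memb w := by
      set dw : (κ → F) →ₗ[F] F :=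
        { toFun := fun φ => w ⬝ᵥ φ
          map_add' := fun x y => dotProduct_add w x y
          map_smul' := fun c x => dotProduct_smul c w x }
      set uw : LinearMap.ker dw →ₗ[F] (ι → F) := (Matrix.mulVecLin u) ∘ₗ (LinearMap.ker dw).subtype
      by_cases hinj : LinearMap.ker uw = ⊥
      · obtain ⟨z, hz, hz0⟩ := Submodule.exists_mem_ne_zero_of_ne_bot hne
        obtain ⟨z', rfl⟩ := mem_memb.1 hz.2
        have h1 := LinearMap.finrank_range_add_finrank_ker uw
        have h2 := LinearMap.finrank_range_add_finrank_ker dw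
        have h3 : finrank F (LinearMap.range dw) ≤ 1 :=
          (Submodule.finrank_le _).trans (Module.finrank_self F).le
        rw [hinj, finrank_bot] at h1
        rw [Module.finrank_pi] at h2
        have htop : LinearMap.range uw = ⊤ := Submodule.eq_top_of_finrank_eq (le_antisymm
          (Submodule.finrank_le _) (by rw [Module.finrank_pi]; omega))
        obtain ⟨⟨ψ, hψ⟩, hψz⟩ := LinearMap.range_eq_top.1 htop z'
        change u *ᵥ ψ = z' at hψz
        refine ⟨ψ, fun h0 => hz0 ?_, hψ, by rw [hψz]; exact hz⟩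
        rw [← hψz, h0, mulVec_zero, pure_zero_left]
      · obtain ⟨⟨ψ, hψ⟩, hψk, hψ0⟩ := Submodule.exists_mem_ne_zero_of_ne_bot hinj
        change u *ᵥ ψ = 0 at hψk
        refine ⟨ψ, fun h0 => hψ0 (Subtype.ext h0), hψ, ?_⟩
        rw [hψk, pure_zero_left]
        exact Submodule.zero_mem _
    obtain ⟨x, hx, hxy⟩ := inM_one hM hwψ (ι := ι)
    have hxu : x u ∈ S' := by
      rw [hxy, rootMap_apply, one_mulVec]; exact S'.add_mem hu hψu.1
    have hxu' : x u ∉ memb w := fun hm => huw (by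
      rw [hxy, rootMap_apply, one_mulVec] at hm
      exact ((memb w).add_mem_iff_left (pure_mem_memb _ _)).1 hm)
    have hxfix : ∀ s ∈ memb w, x s = s := fun s hs => by
      obtain ⟨z, rfl⟩ := mem_memb.1 hs
      rw [hxy, rootMap_apply, one_mulVec, pure_mulVec, hwψ, zero_smul, pure_zero_left, add_zero]
    set T := S'.map (x : Matrix ι κ F →ₗ[F] Matrix ι κ F)
    have hbig : S' ⊓ memb w < T ⊓ S' := by
      refine SetLike.lt_iff_le_and_exists.2 ⟨fun s hs => ⟨⟨s, hs.1, hxfix s hs.2⟩, hs.1⟩,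
        x u, ⟨⟨u, hu, rfl⟩, hxu⟩, fun hm => hxu' hm.2⟩
    -- pulled back by `h` it is a pair with larger intersection
    set h' := h⁻¹ * x * h
    have hh' : h' ∈ M := M.mul_mem (M.mul_mem (M.inv_mem hh) hx) hh
    have hmap : ∀ S : Submodule F (Matrix ι κ F),
        (S.map (h' : Matrix ι κ F →ₗ[F] Matrix ι κ F)).map (h : Matrix ι κ F →ₗ[F] Matrix ι κ F)
          = (S.map (h : Matrix ι κ F →ₗ[F] Matrix ι κ F)).map
            (x : Matrix ι κ F →ₗ[F] Matrix ι κ F) := by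
      intro S
      rw [← Submodule.map_comp, ← Submodule.map_comp]
      congr 1
      refine LinearMap.ext fun X => ?_
      change h (h.symm (x (h X))) = x (h X)
      rw [h.apply_symm_apply]
    have hinf : ((memb v).map (h' : Matrix ι κ F →ₗ[F] Matrix ι κ F) ⊓ memb v).map
        (h : Matrix ι κ F →ₗ[F] Matrix ι κ F) = T ⊓ S' := by
      rw [Submodule.map_inf _ h.injective, hmap]
    have hfin := LinearEquiv.finrank_map_eq h
      ((memb v).map (h' : Matrix ι κ F →ₗ[F] Matrix ι κ F) ⊓ memb v)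
    rw [hinf] at hfin
    have hlt := Submodule.finrank_lt_finrank_of_lt hbig
    have heq := ih h' hh' v v hv hv (by omega) fun h0 => by
      rw [h0, finrank_bot] at hfin
      omega
    have hTS : T = S' := by
      have h := hmap (memb v)
      rw [heq] at h
      exact h.symm
    -- so the conjugate root element stabilises `v`: twisted contradiction
    set N := ((h⁻¹ : Matrix ι κ F ≃ₗ[F] Matrix ι κ F) : Matrix ι κ F →ₗ[F] Matrix ι κ F) ∘ₗ
      rootMap 1 w ψ ∘ₗ ((h⁻¹).symm : Matrix ι κ F →ₗ[F] Matrix ι κ F)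
    have hNr : LinearMap.range N = (memb w).map (h.symm : Matrix ι κ F →ₗ[F] Matrix ι κ F) := by
      rw [range_conj_le, range_rootMap_one hψ]; rfl
    have hst : ∀ z, N (pure z v) ∈ memb v := fun z => by
      have hm : x (h (pure z v)) ∈ S' := hTS ▸
        ⟨h (pure z v), ⟨pure z v, pure_mem_memb _ _, rfl⟩, rfl⟩
      rw [hxy] at hm
      obtain ⟨y, hy, hyh⟩ := hm
      have : N (pure z v) = y - pure z v := by
        apply h.injective
        change h (h.symm (rootMap 1 w ψ (h (pure z v)))) = _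
        rw [h.apply_symm_apply, map_sub, show h y = _ from hyh, add_sub_cancel_left]
      rw [this]
      exact Submodule.sub_mem _ hy (pure_mem_memb _ _)
    have hle2 : LinearMap.range N ≤ memb v := by
      refine range_le_memb hκ hικ hM hsc ((inM_one hM hwψ).conj (M.inv_mem hh)) (fun X => ?_) ?_ hv
        hst ?_
      · change h.symm (rootMap 1 w ψ (h (h.symm (rootMap 1 w ψ (h X))))) = 0
        rw [h.apply_symm_apply, rootMap_sq 1 hwψ, map_zero]
      · rw [hNr, LinearEquiv.finrank_map_eq, finrank_memb hw]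
      · obtain ⟨z, hz, hz0⟩ := Submodule.exists_mem_ne_zero_of_ne_bot hne
        obtain ⟨z', hz', rfl⟩ := hz.1
        refine (Submodule.ne_bot_iff _).2 ⟨z', ⟨hNr ▸ ?_, hz'⟩, fun h0 => hz0 (by simp [h0])⟩
        exact ⟨h z', hz.2, h.symm_apply_apply z'⟩
    refine hneq (Submodule.eq_of_le_of_finrank_le ?_
      (by rw [hdim h v hv, finrank_memb hw])).symm
    intro X hX
    exact ⟨h.symm X, hle2 (hNr ▸ ⟨X, hX, rfl⟩), h.apply_symm_apply X⟩

/-- Every element of `M` carries members to members. -/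
theorem map_memb [Nonempty ι] (hM : ContainsSL M) (hκ : 3 ≤ Fintype.card κ)
    (hικ : Fintype.card ι < Fintype.card κ) (hsc : OnlyScalars M)
    {g : Matrix ι κ F ≃ₗ[F] Matrix ι κ F} (hg : g ∈ M) {w₀ : κ → F} (hw₀ : w₀ ≠ 0) :
    ∃ v, (memb w₀).map (g : Matrix ι κ F →ₗ[F] Matrix ι κ F) = memb v := by
  by_contra! hnon
  set S' := (memb w₀).map (g : Matrix ι κ F →ₗ[F] Matrix ι κ F)
  have hdim : finrank F S' = Fintype.card ι := by
    rw [LinearEquiv.finrank_map_eq, finrank_memb hw₀]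
  have hdis : ∀ w : κ → F, S' ⊓ memb w = ⊥ := by
    intro w
    rcases eq_or_ne w 0 with rfl | hw
    · rw [show memb (ι := ι) (0 : κ → F) = ⊥ from LinearMap.range_eq_bot.2
        (LinearMap.ext fun u => by simp), inf_bot_eq]
    · by_contra hne
      exact hnon w (map_memb_eq_of_inf_ne_bot hM hκ hικ hsc _ g hg w₀ w hw₀ hw
        (Nat.le_add_left _ _) hne)
  obtain ⟨s₀, hs₀, hs₀0⟩ := Submodule.exists_mem_ne_zero_of_ne_bot (p := S') fun h0 => by
    rw [h0, finrank_bot] at hdim; exact Fintype.card_ne_zero hdim.symm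
  -- covectors killing one element kill all
  have hkill : ∀ ψ : κ → F, s₀ *ᵥ ψ = 0 → ∀ s ∈ S', s *ᵥ ψ = 0 := by
    intro ψ hs0ψ s hs
    obtain ⟨w, hw, hwψ, -⟩ := exists_ne_zero_orth_two hκ ψ ψ
    rw [dotProduct_comm] at hwψ
    obtain ⟨x, hx, hxy⟩ := inM_one hM hwψ (ι := ι)
    have hgx : g⁻¹ * x * g ∈ M := M.mul_mem (M.mul_mem (M.inv_mem hg) hx) hg
    obtain ⟨z₀, hz₀, hz₀s⟩ := hs₀
    have hfix : (g⁻¹ * x * g) z₀ = z₀ := by
      change g.symm (x (g z₀)) = z₀
      rw [hxy, rootMap_apply, one_mulVec, show g z₀ = s₀ from hz₀s, hs0ψ, pure_zero_left, add_zero,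
        ← hz₀s]
      exact g.symm_apply_apply z₀
    have heq := map_memb_eq_of_inf_ne_bot hM hκ hικ hsc _ _ hgx w₀ w₀ hw₀ hw₀
      (Nat.le_add_left _ _) ((Submodule.ne_bot_iff _).2
        ⟨z₀, ⟨⟨z₀, hz₀, hfix⟩, hz₀⟩, fun h0 => hs₀0 (by rw [← hz₀s, h0, map_zero])⟩)
    obtain ⟨z, hz, hzs⟩ := hs
    have hm : (g⁻¹ * x * g) z ∈ memb w₀ := heq ▸ ⟨z, hz, rfl⟩
    have hxs : x s ∈ S' := by
      refine ⟨_, hm, ?_⟩
      change g (g.symm (x (g z))) = x s
      rw [g.apply_symm_apply, ← hzs]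
      rfl
    rw [hxy, rootMap_apply, one_mulVec, S'.add_mem_iff_right ⟨z, hz, hzs⟩] at hxs
    have := (hdis w).le ⟨hxs, pure_mem_memb _ _⟩
    exact (pure_eq_zero_iff hw).1 ((Submodule.mem_bot F).1 this)
  -- the common row space
  set K : Submodule F (κ → F) := LinearMap.ker (Matrix.mulVecLin s₀)
  obtain ⟨ψ, hψK, hψ0⟩ := Submodule.exists_mem_ne_zero_of_ne_bot (p := K) fun h0 => by
    have h1 := LinearMap.finrank_range_add_finrank_ker (Matrix.mulVecLin s₀)
    have h2 := Submodule.finrank_le (LinearMap.range (Matrix.mulVecLin s₀))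
    rw [show LinearMap.ker (Matrix.mulVecLin s₀) = ⊥ from h0, finrank_bot, Module.finrank_pi] at h1
    rw [Module.finrank_pi] at h2
    omega
  let W : Submodule F (κ → F) :=
    { carrier := {w | ∀ φ ∈ K, w ⬝ᵥ φ = 0}
      add_mem' := fun ha hb φ hφ => by rw [add_dotProduct, ha φ hφ, hb φ hφ, add_zero]
      zero_mem' := fun φ _ => zero_dotProduct φ
      smul_mem' := fun c a ha φ hφ => by rw [smul_dotProduct, ha φ hφ, smul_zero] }
  have hrow : ∀ s ∈ S', ∀ i, s i ∈ W := fun s hs i φ hφ => congrFun (hkill φ hφ s hs) i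
  have hmem : ∀ w ∈ W, w ≠ 0 → ∃ v, ∀ u, g.symm (pure u w) ∈ memb v := by
    intro w hw hw0
    have hwψ := hw ψ hψK
    have hN := (inM_one hM hwψ (ι := ι)).conj (M.inv_mem hg)
    set N := ((g⁻¹ : Matrix ι κ F ≃ₗ[F] Matrix ι κ F) : Matrix ι κ F →ₗ[F] Matrix ι κ F) ∘ₗ
      rootMap 1 w ψ ∘ₗ ((g⁻¹).symm : Matrix ι κ F →ₗ[F] Matrix ι κ F)
    have hNr : LinearMap.range N = (memb w).map (g.symm : Matrix ι κ F →ₗ[F] Matrix ι κ F) := by
      rw [range_conj_le, range_rootMap_one hψ0]; rfl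
    obtain ⟨v, -, hv⟩ := exists_range_le_memb hM hκ hsc hN (fun X => by
        change g.symm (rootMap 1 w ψ (g (g.symm (rootMap 1 w ψ (g X))))) = 0
        rw [g.apply_symm_apply, rootMap_sq 1 hwψ, map_zero])
      (by rw [hNr, LinearEquiv.finrank_map_eq, finrank_memb hw0]) hw₀
      (fun u => by
        change g.symm (rootMap 1 w ψ (g (pure u w₀))) = 0
        rw [rootMap_apply, one_mulVec, hkill ψ hψK (g (pure u w₀)) ⟨_, pure_mem_memb _ _, rfl⟩,
          pure_zero_left, map_zero])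
      (by
        rw [hNr, eq_bot_iff]
        rintro X ⟨⟨Y, hY, rfl⟩, hX⟩
        have := (hdis w).le ⟨⟨_, hX, g.apply_symm_apply Y⟩, hY⟩
        rw [Submodule.mem_bot] at this ⊢
        simp [this])
    exact ⟨v, fun u => hv (hNr ▸ ⟨pure u w, pure_mem_memb _ _, rfl⟩)⟩
  obtain ⟨i₀, hi₀⟩ : ∃ i, s₀ i ≠ 0 := by
    by_contra! h; exact hs₀0 (funext h)
  obtain ⟨α, hα, hv⟩ := exists_common g.symm W (hrow _ hs₀ i₀) hi₀ hmem
  choose v hv using fun i => hv (s₀ i) (hrow _ hs₀ i)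
  obtain ⟨z, hz, hzs⟩ := hs₀
  obtain ⟨a₀, rfl⟩ := mem_memb.1 hz
  obtain ⟨η, hη⟩ := exists_dual hw₀
  have hsum : pure a₀ w₀ = ∑ i, pure (α (Pi.single i 1)) (v i) := by
    rw [← g.symm_apply_apply (pure a₀ w₀), show g (pure a₀ w₀) = s₀ from hzs]
    conv_lhs => rw [show s₀ = ∑ i, pure (Pi.single i (1 : F)) (s₀ i) by
      ext i k; simp [Matrix.sum_apply, pure, vecMulVec_apply, Pi.single_apply]]
    rw [map_sum]
    simp only [hv]
  have hvi : ∀ i, v i = (v i ⬝ᵥ η) • w₀ := fun i => eq_smul_of_forall_orth hη fun φ hφ => by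
    have h := congrArg (fun Z => Z *ᵥ φ) hsum
    simp only [pure_mulVec, hφ, zero_smul, Matrix.sum_mulVec] at h
    simp only [← map_smul, ← map_sum] at h
    have h1 := congrFun (hα (h.symm.trans (map_zero α).symm)) i
    simpa [Finset.sum_apply, Pi.single_apply] using h1
  refine hs₀0 ?_
  have hbad : (memb (s₀ i₀)).map (g.symm : Matrix ι κ F →ₗ[F] Matrix ι κ F) ≤ memb w₀ := by
    rintro _ ⟨Y, hY, rfl⟩
    obtain ⟨u, rfl⟩ := mem_memb.1 hY
    rw [LinearEquiv.coe_coe, hv i₀ u, hvi i₀, pure, vecMulVec_smul, ← smul_vecMulVec]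
    exact pure_mem_memb _ _
  obtain ⟨u, hu⟩ := exists_ne (0 : ι → F)
  have := (hdis (s₀ i₀)).le ⟨⟨_, hbad ⟨_, pure_mem_memb u _, rfl⟩, g.apply_symm_apply _⟩,
    pure_mem_memb u _⟩
  exact absurd ((pure_eq_zero_iff hi₀).1 ((Submodule.mem_bot F).1 this)) hu

end CfsgLib.TensorMax
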