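import Cfsg.Agent.TensorMax.Adjoint

/-!
Members `F^ι ⊗ w` of a tensor decomposition, and linear maps carrying members to members.
-/

set_option autoImplicit false

namespace CfsgLib.TensorMax

open Matrix Module

variable {F : Type*} [Field F] {ι κ : Type} [Fintype ι] [DecidableEq ι] [Fintype κ] [DecidableEq κ]

/-- `u ↦ u ⊗ w`. -/
def pureL (w : κ → F) : (ι → F) →ₗ[F] Matrix ι κ F where
  toFun u := pure u w
  map_add' u v := add_vecMulVec u v w
  map_smul' c u := smul_vecMulVec c u w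

@[simp] lemma pureL_apply (w : κ → F) (u : ι → F) : pureL w u = pure u w := rfl

/-- `X ↦ X ψ`. -/
def colL (ψ : κ → F) : Matrix ι κ F →ₗ[F] (ι → F) where
  toFun X := X *ᵥ ψ
  map_add' X Y := add_mulVec X Y ψ
  map_smul' c X := smul_mulVec c X ψ

@[simp] lemma colL_apply (ψ : κ → F) (X : Matrix ι κ F) : colL ψ X = X *ᵥ ψ := rfl

/-- The member `F^ι ⊗ w`. -/
def memb (w : κ → F) : Submodule F (Matrix ι κ F) := LinearMap.range (pureL w)

@[simp] lemma pure_zero_right (u : ι → F) : pure u (0 : κ → F) = 0 := by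
  ext i j; simp [pure, vecMulVec_apply]

@[simp] lemma pure_zero_left (w : κ → F) : pure (0 : ι → F) w = 0 := by
  ext i j; simp [pure, vecMulVec_apply]

lemma mem_memb {w : κ → F} {X : Matrix ι κ F} : X ∈ memb w ↔ ∃ u, pure u w = X := LinearMap.mem_range

lemma pure_mem_memb (u : ι → F) (w : κ → F) : pure u w ∈ memb w := mem_memb.2 ⟨u, rfl⟩

lemma exists_dual {w : κ → F} (hw : w ≠ 0) : ∃ η : κ → F, w ⬝ᵥ η = 1 := by
  obtain ⟨η, h, -⟩ := exists_covec (P := (⊥ : Submodule F (κ → F))) (v := w) (by simpa using hw)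
  exact ⟨η, by rw [dotProduct_comm, h]⟩

lemma pureL_injective {w : κ → F} (hw : w ≠ 0) :
    Function.Injective (pureL (ι := ι) w) := by
  obtain ⟨η, hη⟩ := exists_dual hw
  intro u v h
  simpa [pure_mulVec, hη] using congrArg (fun Z => Z *ᵥ η) h

lemma pure_eq_zero_iff {w : κ → F} (hw : w ≠ 0) {u : ι → F} : pure u w = 0 ↔ u = 0 :=
  ⟨fun h => pureL_injective hw (by rw [pureL_apply, h, map_zero]), fun h => by subst h; simp⟩

lemma finrank_memb {w : κ → F} (hw : w ≠ 0) :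
    finrank F (memb (ι := ι) w) = Fintype.card ι := by
  rw [memb, LinearMap.finrank_range_of_inj (pureL_injective hw), Module.finrank_pi]

lemma eq_memb_of_le {w : κ → F} {S : Submodule F (Matrix ι κ F)}
    (hS : Fintype.card ι ≤ finrank F S) (hle : S ≤ memb w) (hw : w ≠ 0) : S = memb w :=
  Submodule.eq_of_le_of_finrank_le hle (by rwa [finrank_memb hw])

lemma single_sub_orth {w η : κ → F} (h : w ⬝ᵥ η = 1) (j : κ) :
    w ⬝ᵥ (Pi.single j 1 - w j • η) = 0 := by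
  rw [dotProduct_sub, dotProduct_smul, h, dotProduct_single, smul_eq_mul, mul_one, sub_self]

lemma eq_smul_of_forall_orth {w η b : κ → F} (h : w ⬝ᵥ η = 1)
    (hb : ∀ φ, w ⬝ᵥ φ = 0 → b ⬝ᵥ φ = 0) : b = (b ⬝ᵥ η) • w := by
  funext j
  have h1 := hb _ (single_sub_orth h j)
  rw [dotProduct_sub, dotProduct_smul, dotProduct_single, smul_eq_mul, mul_one, sub_eq_zero] at h1
  rw [h1, Pi.smul_apply, smul_eq_mul, mul_comm]

lemma eq_pure_add_pure {w η w₁ : κ → F} {u : ι → F} (h : w ⬝ᵥ η = 1) {Z : Matrix ι κ F}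
    (hZ : ∀ j, Z *ᵥ (Pi.single j 1 - w j • η) = w₁ j • u) :
    Z = pure u w₁ + pure (Z *ᵥ η) w := by
  ext i j
  have h1 := congrFun (hZ j) i
  rw [mulVec_sub, mulVec_smul, mulVec_single_one] at h1
  simp only [col_apply, Pi.sub_apply, Pi.smul_apply, smul_eq_mul] at h1
  rw [Matrix.add_apply, pure, pure, vecMulVec_apply, vecMulVec_apply]
  linear_combination h1

lemma mem_memb_of_forall_orth {w : κ → F} (hw : w ≠ 0) {Z : Matrix ι κ F}
    (hZ : ∀ φ, w ⬝ᵥ φ = 0 → Z *ᵥ φ = 0) : Z ∈ memb w := by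
  obtain ⟨η, hη⟩ := exists_dual hw
  have h := eq_pure_add_pure (u := 0) (w₁ := (0 : κ → F)) hη (Z := Z) fun j => by
    rw [hZ _ (single_sub_orth hη j), smul_zero]
  rw [h]
  simpa using pure_mem_memb (Z *ᵥ η) w

/-- If `f` maps the members over two independent vectors and over their sum to members then the
two induced maps are proportional. -/
lemma proportional [Nonempty ι] (f : Matrix ι κ F ≃ₗ[F] Matrix ι κ F) {w₁ w₂ v₁ v₂ v : κ → F}
    (hw₁ : w₁ ≠ 0) (hind : w₂ ∉ Submodule.span F ({w₁} : Set (κ → F)))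
    {α₁ α₂ α : (ι → F) →ₗ[F] (ι → F)} (h₁ : ∀ u, f (pure u w₁) = pure (α₁ u) v₁)
    (h₂ : ∀ u, f (pure u w₂) = pure (α₂ u) v₂) (h : ∀ u, f (pure u (w₁ + w₂)) = pure (α u) v) :
    ∃ c : F, ∀ u, α₂ u = c • α₁ u := by
  have hw₂ : w₂ ≠ 0 := fun h0 => hind (h0 ▸ Submodule.zero_mem _)
  have inj : ∀ {w v : κ → F} {β : (ι → F) →ₗ[F] (ι → F)}, w ≠ 0 →
      (∀ u, f (pure u w) = pure (β u) v) → Function.Injective β ∧ v ≠ 0 := by
    intro w v β hw hb
    refine ⟨fun a b hab => pureL_injective hw (f.injective ?_), ?_⟩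
    · simp [hb, hab]
    · rintro rfl
      obtain ⟨u, hu⟩ := exists_ne (0 : ι → F)
      refine hu ((pure_eq_zero_iff hw).1 (f.injective ?_))
      rw [hb, map_zero, pure_zero_right]
  obtain ⟨hi₁, hv₁⟩ := inj hw₁ h₁
  obtain ⟨hi₂, hv₂⟩ := inj hw₂ h₂
  obtain ⟨u₀, hu₀⟩ := exists_ne (0 : ι → F)
  have hv : v₂ ∉ Submodule.span F ({v₁} : Set (κ → F)) := by
    intro hm
    obtain ⟨c, hc⟩ := Submodule.mem_span_singleton.1 hm
    obtain ⟨u', hu'⟩ := LinearMap.surjective_of_injective hi₁ (c • α₂ u₀)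
    have he : pure u₀ w₂ = pure u' w₁ := f.injective (by
      rw [h₂, h₁, hu', ← hc]; ext i j; simp [pure, vecMulVec_apply]; ring)
    obtain ⟨η, hη, hη'⟩ := exists_covec hind
    have := congrArg (fun Z => Z *ᵥ η) he
    simp only [pure_mulVec] at this
    rw [dotProduct_comm, hη, dotProduct_comm w₁, hη' _ (Submodule.mem_span_singleton_self _),
      one_smul, zero_smul] at this
    exact hu₀ this
  have hv' : v₁ ∉ Submodule.span F ({v₂} : Set (κ → F)) := by
    intro hm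
    obtain ⟨c, hc⟩ := Submodule.mem_span_singleton.1 hm
    rcases eq_or_ne c 0 with rfl | hc0
    · exact hv₁ (by simpa using hc.symm)
    · exact hv (Submodule.mem_span_singleton.2 ⟨c⁻¹, by rw [← hc, inv_smul_smul₀ hc0]⟩)
  obtain ⟨η₂, hη₂, hη₂'⟩ := exists_covec hv
  obtain ⟨η₁, hη₁, hη₁'⟩ := exists_covec hv'
  have hsum : ∀ u, pure (α₁ u) v₁ + pure (α₂ u) v₂ = pure (α u) v := fun u => by
    rw [← h₁, ← h₂, ← h, ← map_add, pure, pure, pure, ← vecMulVec_add]
  have e1 : ∀ u, α₁ u = (v ⬝ᵥ η₁) • α u := fun u => by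
    have := congrArg (fun Z => Z *ᵥ η₁) (hsum u)
    simp only [add_mulVec, pure_mulVec] at this
    rwa [dotProduct_comm v₁, hη₁, dotProduct_comm v₂,
      hη₁' _ (Submodule.mem_span_singleton_self _), one_smul, zero_smul, add_zero] at this
  have e2 : ∀ u, α₂ u = (v ⬝ᵥ η₂) • α u := fun u => by
    have := congrArg (fun Z => Z *ᵥ η₂) (hsum u)
    simp only [add_mulVec, pure_mulVec] at this
    rwa [dotProduct_comm v₁, hη₂' _ (Submodule.mem_span_singleton_self _), dotProduct_comm v₂,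
      hη₂, one_smul, zero_smul, zero_add] at this
  have hne : v ⬝ᵥ η₁ ≠ 0 := fun h0 => hu₀ (hi₁ (by rw [e1, h0, zero_smul, map_zero]))
  refine ⟨(v ⬝ᵥ η₂) / (v ⬝ᵥ η₁), fun u => ?_⟩
  rw [e1, e2, smul_smul, div_mul_cancel₀ _ hne]

/-- If `f` maps all members inside a subspace to members, the induced maps agree up to scalars. -/
lemma exists_common [Nonempty ι] (f : Matrix ι κ F ≃ₗ[F] Matrix ι κ F) (W : Submodule F (κ → F))
    {w₁ : κ → F} (hw₁ : w₁ ∈ W) (hne : w₁ ≠ 0)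
    (hmap : ∀ w ∈ W, w ≠ 0 → ∃ v, ∀ u, f (pure u w) ∈ memb v) :
    ∃ α : (ι → F) →ₗ[F] (ι → F), Function.Injective α ∧
      ∀ w ∈ W, ∃ v, ∀ u, f (pure u w) = pure (α u) v := by
  have key : ∀ w ∈ W, w ≠ 0 → ∃ (v : κ → F) (α : (ι → F) →ₗ[F] (ι → F)),
      ∀ u, f (pure u w) = pure (α u) v := by
    intro w hw hw0
    obtain ⟨v, hv⟩ := hmap w hw hw0
    rcases eq_or_ne v 0 with rfl | hv0
    · refine ⟨0, 0, fun u => ?_⟩
      obtain ⟨z, hz⟩ := mem_memb.1 (hv u)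
      rw [← hz]; simp
    obtain ⟨η, hη⟩ := exists_dual hv0
    refine ⟨v, colL η ∘ₗ f.toLinearMap ∘ₗ pureL w, fun u => ?_⟩
    obtain ⟨z, hz⟩ := mem_memb.1 (hv u)
    simp only [LinearMap.comp_apply, pureL_apply, LinearEquiv.coe_coe, colL_apply]
    rw [← hz, pure_mulVec, hη, one_smul]
  obtain ⟨v₁, α₁, h₁⟩ := key w₁ hw₁ hne
  refine ⟨α₁, fun a b hab => pureL_injective hne (f.injective (by simp [h₁, hab])), fun w hw => ?_⟩
  by_cases hm : w ∈ Submodule.span F ({w₁} : Set (κ → F))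
  · obtain ⟨c, hc⟩ := Submodule.mem_span_singleton.1 hm
    refine ⟨c • v₁, fun u => ?_⟩
    rw [← hc, pure, pure, vecMulVec_smul, vecMulVec_smul, map_smul]
    exact congrArg _ (h₁ u)
  have hw0 : w ≠ 0 := fun h0 => hm (h0 ▸ Submodule.zero_mem _)
  obtain ⟨v₂, α₂, h₂⟩ := key w hw hw0
  obtain ⟨v₃, α₃, h₃⟩ := key (w₁ + w) (W.add_mem hw₁ hw) fun h0 => hm (by
    rw [show w = (-1 : F) • w₁ by rw [neg_one_smul, eq_neg_iff_add_eq_zero, add_comm]; exact h0]
    exact Submodule.smul_mem _ _ (Submodule.mem_span_singleton_self _))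
  obtain ⟨c, hc⟩ := proportional f hne hm h₁ h₂ h₃
  refine ⟨c • v₂, fun u => ?_⟩
  rw [h₂, hc, pure, pure, smul_vecMulVec, vecMulVec_smul]

/-- A linear map carrying every member to a member is of the form `X ↦ a X b`. -/
lemma exists_mul_mul [Nonempty ι] [Nonempty κ] (f : Matrix ι κ F ≃ₗ[F] Matrix ι κ F)
    (hmap : ∀ w : κ → F, w ≠ 0 → ∃ v, ∀ u, f (pure u w) ∈ memb v) :
    ∃ (a : Matrix ι ι F) (b : Matrix κ κ F), ∀ X, f X = a * X * bᵀ := by
  obtain ⟨w₁, hw₁⟩ := exists_ne (0 : κ → F)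
  obtain ⟨α, -, hv⟩ := exists_common f ⊤ Submodule.mem_top hw₁ fun w _ h => hmap w h
  choose v hv using fun w => hv w Submodule.mem_top
  refine ⟨LinearMap.toMatrix' α, Matrix.of fun i j => v (Pi.single j 1) i, fun X => ?_⟩
  have hX : X = ∑ j, pure (X *ᵥ Pi.single j 1) (Pi.single j (1 : F)) := by
    ext i k
    simp [Matrix.sum_apply, pure, vecMulVec_apply, mulVec_single_one, Pi.single_apply]
  have hstep : ∀ j, f (pure (X *ᵥ Pi.single j 1) (Pi.single j (1 : F)))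
      = pure ((LinearMap.toMatrix' α * X) *ᵥ Pi.single j 1) (v (Pi.single j 1)) := fun j => by
    rw [hv, ← mulVec_mulVec, LinearMap.toMatrix'_mulVec]
  conv_lhs => rw [hX, map_sum]
  simp only [hstep]
  ext i k
  rw [Matrix.sum_apply, Matrix.mul_apply]
  exact Finset.sum_congr rfl fun j _ => by
    simp [pure, vecMulVec_apply, mulVec_single_one]

end CfsgLib.TensorMax
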