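import Cfsg.Agent.TensorMax.Main
import Cfsg.Agent.Classical.SLTransvGen
import Cfsg.Agent.Aschbacher.Proper

/-!
Maximality of the stabiliser of a tensor decomposition in `SL`.
-/

set_option autoImplicit false

namespace CfsgLib.TensorMax

open Matrix
open scoped Kronecker MatrixGroups

variable {F : Type*} [Field F] {n n₁ n₂ : ℕ}

/-- The coordinates of a tensor decomposition. -/
noncomputable def tensorCoords (e : Fin n ≃ Fin n₁ × Fin n₂) (P : GL (Fin n) F) :
    (Fin n → F) ≃ₗ[F] Matrix (Fin n₁) (Fin n₂) F :=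
  LinearEquiv.ofBijective
    { toFun := fun v => Matrix.of fun i j =>
        (((P⁻¹ : GL (Fin n) F) : Matrix (Fin n) (Fin n) F) *ᵥ v) (e.symm (i, j))
      map_add' := fun v w => by ext i j; simp [mulVec_add]
      map_smul' := fun c v => by ext i j; simp [mulVec_smul] }
    ⟨fun v w h => by
      have h' : ((P⁻¹ : GL (Fin n) F) : Matrix (Fin n) (Fin n) F) *ᵥ v
          = ((P⁻¹ : GL (Fin n) F) : Matrix (Fin n) (Fin n) F) *ᵥ w := funext fun k => by
        have := congrFun (congrFun h (e k).1) (e k).2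
        simpa using this
      have := congrArg (fun z => (P : Matrix (Fin n) (Fin n) F) *ᵥ z) h'
      simpa [mulVec_mulVec, ← Units.val_mul] using this,
    fun X => ⟨(P : Matrix (Fin n) (Fin n) F) *ᵥ fun k => X (e k).1 (e k).2, by
      ext i j
      simp [mulVec_mulVec, ← Units.val_mul]⟩⟩

lemma tensorCoords_apply (e : Fin n ≃ Fin n₁ × Fin n₂) (P : GL (Fin n) F) (v : Fin n → F)
    (i : Fin n₁) (j : Fin n₂) :
    tensorCoords e P v i j
      = (((P⁻¹ : GL (Fin n) F) : Matrix (Fin n) (Fin n) F) *ᵥ v) (e.symm (i, j)) := rfl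

/-- `GL` acting on the tensor space. -/
noncomputable def tensorAction (e : Fin n ≃ Fin n₁ × Fin n₂) (P : GL (Fin n) F) :
    GL (Fin n) F →* (Matrix (Fin n₁) (Fin n₂) F ≃ₗ[F] Matrix (Fin n₁) (Fin n₂) F) where
  toFun g := ((tensorCoords e P).symm.trans
    (LinearMap.GeneralLinearGroup.generalLinearEquiv F (Fin n → F)
      (Matrix.GeneralLinearGroup.toLin g))).trans (tensorCoords e P)
  map_one' := LinearEquiv.ext fun X => by simp
  map_mul' g h := LinearEquiv.ext fun X => by simp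

lemma tensorAction_apply (e : Fin n ≃ Fin n₁ × Fin n₂) (P g : GL (Fin n) F)
    (X : Matrix (Fin n₁) (Fin n₂) F) :
    tensorAction e P g X
      = tensorCoords e P ((g : Matrix (Fin n) (Fin n) F) *ᵥ (tensorCoords e P).symm X) := rfl

lemma tensorAction_coords (e : Fin n ≃ Fin n₁ × Fin n₂) (P g : GL (Fin n) F) (v : Fin n → F) :
    tensorAction e P g (tensorCoords e P v)
      = tensorCoords e P ((g : Matrix (Fin n) (Fin n) F) *ᵥ v) := by
  rw [tensorAction_apply, LinearEquiv.symm_apply_apply]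

lemma tensorAction_injective (e : Fin n ≃ Fin n₁ × Fin n₂) (P : GL (Fin n) F) :
    Function.Injective (tensorAction e P) := fun g h hgh => Units.ext <|
  Matrix.ext_of_mulVec_single fun i => (tensorCoords e P).injective <| by
    rw [← tensorAction_coords, ← tensorAction_coords, hgh]

lemma kronecker_mulVec_uncurry {ι κ : Type} [Fintype ι] [Fintype κ] (a : Matrix ι ι F)
    (b : Matrix κ κ F) (X : Matrix ι κ F) (p : ι × κ) :
    ((a ⊗ₖ b) *ᵥ fun q => X q.1 q.2) p = (a * X * bᵀ) p.1 p.2 := by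
  simp only [mulVec, dotProduct, Fintype.sum_prod_type, Matrix.mul_apply, Matrix.transpose_apply,
    Finset.sum_mul, Matrix.kroneckerMap_apply]
  rw [Finset.sum_comm]
  exact Finset.sum_congr rfl fun k _ => Finset.sum_congr rfl fun l _ => by ring

lemma tensorAction_mem (e : Fin n ≃ Fin n₁ × Fin n₂) (P : GL (Fin n) F) {a : Matrix (Fin n₁) (Fin n₁) F}
    {b : Matrix (Fin n₂) (Fin n₂) F} (ha : a.det ≠ 0) (hb : b.det ≠ 0) :
    ∃ g ∈ Cfsg.Geo.tensorProductSubgroup n₁ n₂ e P,
      (g : Matrix (Fin n) (Fin n) F).det = (a ⊗ₖ b).det ∧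
        ∀ X, tensorAction e P g X = a * X * bᵀ := by
  have hk : (a ⊗ₖ b).det ≠ 0 := by
    rw [Matrix.det_kronecker]; exact mul_ne_zero (pow_ne_zero _ ha) (pow_ne_zero _ hb)
  let k := Matrix.GeneralLinearGroup.mkOfDetNeZero (a ⊗ₖ b) hk
  have hkK : k ∈ Cfsg.Geo.kroneckerSubgroup n₁ n₂ F :=
    ⟨Matrix.GeneralLinearGroup.mkOfDetNeZero a ha, Matrix.GeneralLinearGroup.mkOfDetNeZero b hb, rfl⟩
  refine ⟨MulAut.conj P (Cfsg.Geo.glReindex e.symm k),
    Subgroup.mem_map_of_mem _ (Subgroup.mem_map_of_mem _ hkK), ?_, fun X => ?_⟩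
  · change ((P : Matrix (Fin n) (Fin n) F) * (Matrix.reindex e.symm e.symm (a ⊗ₖ b))
      * ((P⁻¹ : GL (Fin n) F) : Matrix (Fin n) (Fin n) F)).det = _
    rw [Matrix.det_units_conj, Matrix.det_reindex_self]
  · obtain ⟨v, rfl⟩ := (tensorCoords e P).surjective X
    rw [tensorAction_coords]
    ext i j
    rw [tensorCoords_apply]
    change (((P⁻¹ : GL (Fin n) F) : Matrix (Fin n) (Fin n) F) *ᵥ
      (((P : Matrix (Fin n) (Fin n) F) * (Matrix.reindex e.symm e.symm (a ⊗ₖ b))
        * ((P⁻¹ : GL (Fin n) F) : Matrix (Fin n) (Fin n) F)) *ᵥ v)) (e.symm (i, j)) = _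
    rw [mulVec_mulVec, ← Matrix.mul_assoc, ← Matrix.mul_assoc, ← Units.val_mul, inv_mul_cancel,
      Units.val_one, Matrix.one_mul, ← mulVec_mulVec, Matrix.reindex_apply, Equiv.symm_symm,
      Matrix.submatrix_mulVec_equiv, Function.comp_apply, Equiv.apply_symm_apply]
    exact kronecker_mulVec_uncurry a b (tensorCoords e P v) (i, j)

/-- `SL` lies in every group properly containing the stabiliser in `SL`. -/
theorem specialLinear_le [Finite F] (h1 : 2 ≤ n₁) (h12 : n₁ < n₂)
    (hq : 3 ≤ Nat.card F ∨ 3 ≤ n₁) (e : Fin n ≃ Fin n₁ × Fin n₂) (P : GL (Fin n) F)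
    {M : Subgroup (GL (Fin n) F)}
    (hle : Cfsg.Geo.tensorProductSubgroup n₁ n₂ e P ⊓ Cfsg.Geo.specialLinear (Fin n) F ≤ M)
    (hnle : ¬ M ≤ Cfsg.Geo.tensorProductSubgroup n₁ n₂ e P) :
    Cfsg.Geo.specialLinear (Fin n) F ≤ M := by
  set φ := tensorAction e P
  have hsl : ∀ {a : Matrix (Fin n₁) (Fin n₁) F} {b : Matrix (Fin n₂) (Fin n₂) F},
      a.det = 1 → b.det = 1 → ∃ x ∈ M.map φ, ∀ X, x X = a * X * bᵀ := by
    intro a b ha hb
    obtain ⟨g, hg, hdet, hgX⟩ := tensorAction_mem e P (a := a) (b := b) (by simp [ha]) (by simp [hb])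
    refine ⟨φ g, Subgroup.mem_map_of_mem _ (hle ⟨hg, ?_⟩), hgX⟩
    rw [Matrix.det_kronecker, ha, hb, one_pow, one_pow, one_mul] at hdet
    exact MonoidHom.mem_ker.2 (Units.ext hdet)
  have hM : ContainsSL (M.map φ) := by
    refine ⟨fun a ha => ?_, fun b hb => ?_⟩
    · obtain ⟨x, hx, hxX⟩ := hsl ha (det_one (n := Fin n₂) (R := F))
      exact ⟨x, hx, fun X => by rw [hxX, transpose_one, Matrix.mul_one]⟩
    · obtain ⟨x, hx, hxX⟩ := hsl (det_one (n := Fin n₁) (R := F)) hb
      exact ⟨x, hx, fun X => by rw [hxX, Matrix.one_mul]⟩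
  rcases preserves_or_inM_elemMap hM (by rwa [Fintype.card_fin]) (by simpa using h12)
    (by simpa using hq) with hpres | helem
  · refine absurd (fun g hg => ?_) hnle
    obtain ⟨a, b, ha, hb, hab⟩ := hpres (φ g) (Subgroup.mem_map_of_mem _ hg)
    obtain ⟨g', hg', -, hgX⟩ := tensorAction_mem e P ha hb
    rwa [tensorAction_injective e P (LinearEquiv.ext fun X => (hab X).trans (hgX X).symm : φ g = φ g')]
  · -- elementary transvections of the conjugated group
    set M' := (M.comap ((MulAut.conj P).toMonoidHom.comp Matrix.SpecialLinearGroup.toGL))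
    have htop : M' = ⊤ := CfsgLib.SLTransvGen.eq_top_of_tv_mem M' fun k l hkl t => by
      rw [Subgroup.mem_comap]
      obtain ⟨x, hx, hxX⟩ := helem (e k).1 (e k).2 (e l).1 (e l).2 t
        (fun h => hkl (e.injective (Prod.ext h.1 h.2)))
      obtain ⟨g, hg, rfl⟩ := hx
      suffices heq : ((MulEquiv.toMonoidHom (MulAut.conj P)).comp Matrix.SpecialLinearGroup.toGL)
          (CfsgLib.SLTransvGen.tv hkl t) = g by rw [heq]; exact hg
      refine tensorAction_injective e P (LinearEquiv.ext fun X => ?_)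
      obtain ⟨v, rfl⟩ := (tensorCoords e P).surjective X
      rw [hxX, tensorAction_coords]
      ext i j
      rw [tensorCoords_apply]
      change (((P⁻¹ : GL (Fin n) F) : Matrix (Fin n) (Fin n) F) *ᵥ
        (((P : Matrix (Fin n) (Fin n) F) * Matrix.transvection k l t
          * ((P⁻¹ : GL (Fin n) F) : Matrix (Fin n) (Fin n) F)) *ᵥ v)) (e.symm (i, j)) = _
      rw [mulVec_mulVec, ← Matrix.mul_assoc, ← Matrix.mul_assoc, ← Units.val_mul, inv_mul_cancel,
        Units.val_one, Matrix.one_mul, ← mulVec_mulVec, Matrix.transvection, add_mulVec, one_mulVec,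
        Matrix.single_mulVec, Matrix.add_apply, elemMap_apply, Matrix.smul_apply, Pi.add_apply,
        tensorCoords_apply, tensorCoords_apply, Prod.mk.eta, Equiv.symm_apply_apply]
      simp [Function.update_apply, Matrix.single_apply, Pi.single_apply, Equiv.eq_symm_apply,
        Equiv.symm_apply_eq, Prod.ext_iff, eq_comm]
    intro s hs
    have hdet : (((P⁻¹ * s * P : GL (Fin n) F) : Matrix (Fin n) (Fin n) F)).det = 1 := by
      rw [Units.val_mul, Units.val_mul, Matrix.det_units_conj']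
      exact congrArg Units.val (MonoidHom.mem_ker.1 hs)
    let s' : Matrix.SpecialLinearGroup (Fin n) F := ⟨_, hdet⟩
    have hs' : s' ∈ M' := by rw [htop]; exact Subgroup.mem_top _
    rw [Subgroup.mem_comap, MonoidHom.comp_apply,
      show Matrix.SpecialLinearGroup.toGL s' = P⁻¹ * s * P from Units.ext rfl] at hs'
    simpa [mul_assoc] using hs'

/-- The stabiliser of a tensor decomposition is maximal in `SL`. -/
theorem tensor_maximal [Finite F] (h1 : 2 ≤ n₁) (h12 : n₁ < n₂)
    (hq : 3 ≤ Nat.card F ∨ 3 ≤ n₁) (e : Fin n ≃ Fin n₁ × Fin n₂) (P : GL (Fin n) F) :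
    Cfsg.Geo.IsMaximalIn (Cfsg.Geo.specialLinear (Fin n) F)
      (Cfsg.Geo.tensorProductSubgroup n₁ n₂ e P ⊓ Cfsg.Geo.specialLinear (Fin n) F) := by
  refine ⟨lt_of_le_of_ne inf_le_right fun h => ?_, fun M hle hMle => ?_⟩
  · exact Aschbacher.not_le_tensorProductSubgroup h1 (by omega) e P (h ▸ inf_le_left)
  · by_cases hnle : M ≤ Cfsg.Geo.tensorProductSubgroup n₁ n₂ e P
    · exact Or.inl (le_antisymm (le_inf hnle hMle) hle)
    · exact Or.inr (le_antisymm hMle (specialLinear_le h1 h12 hq e P hle hnle))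

end CfsgLib.TensorMax
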