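import Cfsg.Agent.TensorMax.Basic

/-!
A conjugation-invariant space of matrices containing a non-scalar contains a square-zero element
of rank one.
-/

set_option autoImplicit false

namespace CfsgLib.TensorMax

open Matrix

variable {F : Type*} [Field F] {ι : Type} [Fintype ι] [DecidableEq ι]

lemma exists_covec {P : Submodule F (ι → F)} {v : ι → F} (hv : v ∉ P) :
    ∃ φ : ι → F, φ ⬝ᵥ v = 1 ∧ ∀ y ∈ P, φ ⬝ᵥ y = 0 := by
  obtain ⟨f, hf, hker⟩ := Submodule.exists_le_ker_of_notMem hv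
  have key : ∀ x : ι → F, (fun i => (f v)⁻¹ * f (Pi.single i 1)) ⬝ᵥ x = (f v)⁻¹ * f x := by
    intro x
    conv_rhs => rw [pi_eq_sum_univ' x, map_sum]
    rw [dotProduct, Finset.mul_sum]
    exact Finset.sum_congr rfl fun i _ => by rw [map_smul, smul_eq_mul]; ring
  exact ⟨_, by rw [key, inv_mul_cancel₀ hf], fun y hy => by
    rw [key, show f y = 0 from hker hy, mul_zero]⟩

lemma eq_smul_one_of_forall_mem_span (τ : Matrix ι ι F)
    (h : ∀ u, τ *ᵥ u ∈ Submodule.span F ({u} : Set (ι → F))) : ∃ c : F, τ = c • 1 := by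
  rcases isEmpty_or_nonempty ι with hι | hι
  · exact ⟨0, Subsingleton.elim _ _⟩
  choose c hc using fun u => Submodule.mem_span_singleton.1 (h u)
  let i₀ := Classical.arbitrary ι
  refine ⟨c (Pi.single i₀ 1), Matrix.ext_of_mulVec_single fun i => ?_⟩
  rw [smul_mulVec, one_mulVec]
  rcases eq_or_ne i i₀ with rfl | hi
  · rw [hc]
  have hsum := hc (Pi.single i 1 + Pi.single i₀ 1)
  rw [mulVec_add, ← hc (Pi.single i 1), ← hc (Pi.single i₀ 1), smul_add] at hsum
  have e1 := congrFun hsum i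
  have e2 := congrFun hsum i₀
  simp [hi, Ne.symm hi] at e1 e2
  rw [← hc, ← e1, e2]

theorem exists_rankOne (hq : 3 ≤ Nat.card F ∨ 3 ≤ Fintype.card ι) [Finite F]
    (T : Submodule F (Matrix ι ι F))
    (hinv : ∀ τ ∈ T, ∀ a a' : Matrix ι ι F, a.det = 1 → a' * a = 1 → a * τ * a' ∈ T)
    {τ : Matrix ι ι F} (hτ : τ ∈ T) (hns : ∀ c : F, τ ≠ c • 1) :
    ∃ u v : ι → F, u ≠ 0 ∧ v ≠ 0 ∧ v ⬝ᵥ u = 0 ∧ vecMulVec u v ∈ T := by
  classical
  obtain ⟨u, hu⟩ : ∃ u, τ *ᵥ u ∉ Submodule.span F ({u} : Set (ι → F)) := by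
    by_contra! h
    obtain ⟨c, hc⟩ := eq_smul_one_of_forall_mem_span τ h
    exact hns c hc
  have hu0 : u ≠ 0 := fun h => hu (by simp [h])
  obtain ⟨φ, hφτ, hφ⟩ := exists_covec hu
  have hφu : φ ⬝ᵥ u = 0 := hφ u (Submodule.mem_span_singleton_self u)
  have hφ0 : φ ≠ 0 := fun h => by rw [h, zero_dotProduct] at hφτ; exact zero_ne_one hφτ
  -- the difference with a conjugate
  have hD : ∀ (Y : Matrix ι ι F), Y ∈ T → ∀ (x y : ι → F), y ⬝ᵥ x = 0 →
      vecMulVec x (y ᵥ* Y) - vecMulVec (Y *ᵥ x) y - (y ⬝ᵥ (Y *ᵥ x)) • vecMulVec x y ∈ T := by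
    intro Y hY x y hxy
    have hsq : vecMulVec x y * vecMulVec x y = 0 := by
      rw [vecMulVec_mul_vecMulVec, hxy, zero_smul]
      ext i j; simp [vecMulVec_apply]
    have h := T.sub_mem (hinv Y hY (1 + vecMulVec x y) (1 - vecMulVec x y)
      (by rw [det_one_add_vecMulVec, hxy, add_zero])
      (by rw [sub_mul, one_mul, mul_add, mul_one, hsq, add_zero, add_sub_cancel_right])) hY
    convert h using 1
    simp only [add_mul, one_mul, mul_sub, mul_one, vecMulVec_mul, mul_vecMulVec, add_mulVec,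
      vecMulVec_mulVec, ← dotProduct_mulVec]
    ext i j
    simp [vecMulVec_apply]
    ring
  have hD1 : ∀ c : F, c • (vecMulVec u (φ ᵥ* τ) - vecMulVec (τ *ᵥ u) φ)
      - (c * c) • vecMulVec u φ ∈ T := fun c => by
    have h := hD τ hτ (c • u) φ (by simp [hφu])
    convert h using 1
    rw [mulVec_smul, dotProduct_smul, hφτ]
    ext i j
    simp [vecMulVec_apply]
    ring
  by_cases h3 : 3 ≤ Nat.card F
  · obtain ⟨c, hc0, hc1⟩ : ∃ c : F, c ≠ 0 ∧ c ≠ 1 := by
      by_contra! h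
      have hsub : (Set.univ : Set F) ⊆ {0, 1} := fun c _ => by
        rcases eq_or_ne c 0 with rfl | hc
        · simp
        · simp [h c hc]
      have h1 := Set.ncard_le_ncard hsub (Set.toFinite _)
      rw [Set.ncard_univ, Set.ncard_pair zero_ne_one] at h1
      omega
    refine ⟨u, φ, hu0, hφ0, hφu, ?_⟩
    have h := T.sub_mem (hD1 c) (T.smul_mem c (hD1 1))
    have hne : c - c * c ≠ 0 := by
      rw [show c - c * c = c * (1 - c) by ring]
      exact mul_ne_zero hc0 (sub_ne_zero.2 hc1.symm)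
    have h2 := T.smul_mem (c - c * c)⁻¹ h
    convert h2 using 1
    simp only [one_smul, mul_one]
    match_scalars <;> field_simp <;> ring
  · have hι : 3 ≤ Fintype.card ι := hq.resolve_left h3
    set X := vecMulVec u (φ ᵥ* τ) - vecMulVec (τ *ᵥ u) φ - vecMulVec u φ
    have hX : X ∈ T := by simpa using hD1 1
    have hXu : X *ᵥ u = u := by
      simp only [X, sub_mulVec, vecMulVec_mulVec, hφu, ← dotProduct_mulVec, hφτ]
      ext i; simp
    obtain ⟨z, hz⟩ : ∃ z, z ∉ Submodule.span F ({u, τ *ᵥ u} : Set (ι → F)) := by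
      by_contra! h
      have h1 := finrank_span_finset_le_card (R := F) (M := ι → F) {u, τ *ᵥ u}
      rw [Finset.coe_pair, Set.finrank,
        show Submodule.span F ({u, τ *ᵥ u} : Set (ι → F)) = ⊤ from eq_top_iff.2 fun x _ => h x,
        finrank_top, Module.finrank_pi] at h1
      have := h1.trans Finset.card_le_two
      omega
    obtain ⟨φ₂, h21, h22⟩ := exists_covec hz
    have e1 : φ₂ ⬝ᵥ u = 0 := h22 u (Submodule.subset_span (by simp))
    have e2 : φ₂ ⬝ᵥ (τ *ᵥ u) = 0 := h22 _ (Submodule.subset_span (by simp))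
    refine ⟨u, φ₂, hu0, fun h => ?_, e1, ?_⟩
    · rw [h, zero_dotProduct] at h21; exact zero_ne_one h21
    have hX2 : φ₂ ᵥ* X = 0 := by
      simp only [X, vecMul_sub, vecMul_vecMulVec, e1, e2, zero_smul, sub_zero]
    have h := hD X hX u φ₂ e1
    rw [hX2, hXu, e1, zero_smul, sub_zero] at h
    have h' := T.neg_mem h
    convert h' using 1
    ext i j
    simp [vecMulVec_apply]

end CfsgLib.TensorMax
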