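import Mathlib

/-!
Root elements for a tensor decomposition `F^n₁ ⊗ F^n₂`, realised as `n₁ × n₂` matrices `X` acted on
by `X ↦ a X bᵀ`, inside a group `M` of linear automorphisms containing `SL × 1` and `1 × SL`.
-/

set_option autoImplicit false

namespace CfsgLib.TensorMax

open Matrix

variable {F : Type*} [Field F] {ι κ : Type} [Fintype ι] [DecidableEq ι] [Fintype κ] [DecidableEq κ]

/-- `1 + N` lies in `M`. -/
def InM (M : Subgroup (Matrix ι κ F ≃ₗ[F] Matrix ι κ F)) (N : Matrix ι κ F →ₗ[F] Matrix ι κ F) :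
    Prop := ∃ e ∈ M, ∀ X, e X = X + N X

/-- `M` contains both special linear factors. -/
def ContainsSL (M : Subgroup (Matrix ι κ F ≃ₗ[F] Matrix ι κ F)) : Prop :=
  (∀ (a : Matrix ι ι F), a.det = 1 → ∃ e ∈ M, ∀ X, e X = a * X) ∧
    ∀ (b : Matrix κ κ F), b.det = 1 → ∃ e ∈ M, ∀ X, e X = X * bᵀ

variable {M : Subgroup (Matrix ι κ F ≃ₗ[F] Matrix ι κ F)}

lemma InM.zero : InM M 0 := ⟨1, M.one_mem, fun X => by simp⟩

lemma InM.congr {N N' : Matrix ι κ F →ₗ[F] Matrix ι κ F} (h : InM M N) (he : ∀ X, N' X = N X) :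
    InM M N' := by rwa [LinearMap.ext he]

lemma InM.add {N N' : Matrix ι κ F →ₗ[F] Matrix ι κ F} (h : InM M N) (h' : InM M N')
    (h0 : ∀ X, N (N' X) = 0) : InM M (N + N') := by
  obtain ⟨e, he, hey⟩ := h
  obtain ⟨e', he', hey'⟩ := h'
  refine ⟨e * e', M.mul_mem he he', fun X => ?_⟩
  rw [LinearEquiv.mul_apply, hey', hey, map_add, h0, LinearMap.add_apply]
  abel

lemma InM.neg {N : Matrix ι κ F →ₗ[F] Matrix ι κ F} (h : InM M N) (h0 : ∀ X, N (N X) = 0) :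
    InM M (-N) := by
  obtain ⟨e, he, hey⟩ := h
  refine ⟨e⁻¹, M.inv_mem he, fun X => ?_⟩
  apply e.injective
  rw [← LinearEquiv.mul_apply, mul_inv_cancel, LinearEquiv.coe_one, id_eq, LinearMap.neg_apply,
    map_add, map_neg, hey, hey, h0]
  abel

lemma InM.conj {N : Matrix ι κ F →ₗ[F] Matrix ι κ F} (h : InM M N)
    {g : Matrix ι κ F ≃ₗ[F] Matrix ι κ F} (hg : g ∈ M) :
    InM M ((g : Matrix ι κ F →ₗ[F] Matrix ι κ F) ∘ₗ N ∘ₗ
      (g.symm : Matrix ι κ F →ₗ[F] Matrix ι κ F)) := by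
  obtain ⟨e, he, hey⟩ := h
  refine ⟨g * e * g⁻¹, M.mul_mem (M.mul_mem hg he) (M.inv_mem hg), fun X => ?_⟩
  rw [LinearEquiv.mul_apply, LinearEquiv.mul_apply, hey, map_add]
  change g (g.symm X) + g (N (g.symm X)) = _
  rw [g.apply_symm_apply]
  rfl

lemma InM.comm {N N' : Matrix ι κ F →ₗ[F] Matrix ι κ F} (h : InM M N) (h' : InM M N')
    (hN : ∀ X, N (N X) = 0) (hN' : ∀ X, N' (N' X) = 0) (h0 : ∀ X, N' (N X) = 0) :
    InM M (N ∘ₗ N') := by
  obtain ⟨e, he, hey⟩ := h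
  obtain ⟨e', he', hey'⟩ := h'
  obtain ⟨f, hf, hfy⟩ := InM.neg ⟨e, he, hey⟩ hN
  obtain ⟨f', hf', hfy'⟩ := InM.neg ⟨e', he', hey'⟩ hN'
  refine ⟨e * e' * f * f', M.mul_mem (M.mul_mem (M.mul_mem he he') hf) hf', fun X => ?_⟩
  simp only [LinearEquiv.mul_apply, LinearMap.comp_apply, hey, hey', hfy, hfy',
    LinearMap.neg_apply, map_add, map_neg, hN, hN', h0, map_zero, neg_zero, add_zero]
  abel

/-- `u ⊗ w`. -/
def pure (u : ι → F) (w : κ → F) : Matrix ι κ F := vecMulVec u w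

lemma pure_mulVec (u : ι → F) (w ψ : κ → F) : pure u w *ᵥ ψ = (w ⬝ᵥ ψ) • u := by
  rw [pure, vecMulVec_mulVec]
  ext i; simp [mul_comm]

/-- The root map `τ ⊗ (w ψ)`. -/
def rootMap (τ : Matrix ι ι F) (w ψ : κ → F) : Matrix ι κ F →ₗ[F] Matrix ι κ F where
  toFun X := pure (τ *ᵥ (X *ᵥ ψ)) w
  map_add' X Y := by simp [pure, add_mulVec, mulVec_add, add_vecMulVec]
  map_smul' c X := by simp [pure, smul_mulVec, mulVec_smul, smul_vecMulVec]

@[simp] lemma rootMap_apply (τ : Matrix ι ι F) (w ψ : κ → F) (X : Matrix ι κ F) :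
    rootMap τ w ψ X = pure (τ *ᵥ (X *ᵥ ψ)) w := rfl

lemma rootMap_sq (τ : Matrix ι ι F) {w ψ : κ → F} (h : w ⬝ᵥ ψ = 0) (X : Matrix ι κ F) :
    rootMap τ w ψ (rootMap τ w ψ X) = 0 := by
  rw [rootMap_apply, rootMap_apply, pure_mulVec, h, zero_smul, mulVec_zero]
  simp [pure]

lemma det_one_add_vecMulVec (u v : κ → F) : (1 + vecMulVec u v).det = 1 + v ⬝ᵥ u := by
  rw [vecMulVec_eq Unit, det_one_add_replicateCol_mul_replicateRow]

lemma inM_one (hM : ContainsSL M) {w ψ : κ → F} (h : w ⬝ᵥ ψ = 0) :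
    InM M (rootMap (1 : Matrix ι ι F) w ψ) := by
  obtain ⟨e, he, hey⟩ := hM.2 (1 + vecMulVec w ψ)
    (by rw [det_one_add_vecMulVec, dotProduct_comm, h, add_zero])
  refine ⟨e, he, fun X => ?_⟩
  rw [hey, transpose_add, transpose_one, Matrix.mul_add, Matrix.mul_one, transpose_vecMulVec, mul_vecMulVec,
    rootMap_apply, one_mulVec]
  rfl

/-- `τ` is a coefficient. -/
def IsCoeff (M : Subgroup (Matrix ι κ F ≃ₗ[F] Matrix ι κ F)) (τ : Matrix ι ι F) : Prop :=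
  ∀ w ψ : κ → F, w ⬝ᵥ ψ = 0 → InM M (rootMap τ w ψ)

lemma IsCoeff.add {τ τ' : Matrix ι ι F} (h : IsCoeff M τ) (h' : IsCoeff M τ') :
    IsCoeff M (τ + τ') := fun w ψ hw =>
  ((h w ψ hw).add (h' w ψ hw) fun X => by
    rw [rootMap_apply, rootMap_apply, pure_mulVec, hw, zero_smul, mulVec_zero]
    simp [pure]).congr fun X => by
      simp only [rootMap_apply, pure, LinearMap.add_apply, add_mulVec, add_vecMulVec]

lemma IsCoeff.smul {τ : Matrix ι ι F} (h : IsCoeff M τ) (c : F) : IsCoeff M (c • τ) :=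
  fun w ψ hw => (h w (c • ψ) (by simp [hw])).congr fun X => by
    simp [pure, mulVec_smul, smul_mulVec]

lemma IsCoeff.sub {τ τ' : Matrix ι ι F} (h : IsCoeff M τ) (h' : IsCoeff M τ') :
    IsCoeff M (τ - τ') := by
  rw [sub_eq_add_neg, ← neg_one_smul F τ']
  exact h.add (h'.smul _)

lemma isCoeff_one (hM : ContainsSL M) : IsCoeff M (1 : Matrix ι ι F) := fun _ _ hw => inM_one hM hw

lemma IsCoeff.conj (hM : ContainsSL M) {τ : Matrix ι ι F} (h : IsCoeff M τ) {a a' : Matrix ι ι F}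
    (ha : a.det = 1) (haa : a' * a = 1) : IsCoeff M (a * τ * a') := by
  intro w ψ hw
  obtain ⟨e, he, hey⟩ := hM.1 a ha
  refine ((h w ψ hw).conj he).congr fun X => ?_
  have hX : a * e.symm X = X := by rw [← hey, e.apply_symm_apply]
  change pure ((a * τ * a') *ᵥ (X *ᵥ ψ)) w = e (pure (τ *ᵥ (e.symm X *ᵥ ψ)) w)
  conv_lhs => rw [← hX]
  rw [hey, mulVec_mulVec, ← Matrix.mul_assoc (a * τ * a') a, mul_assoc (a * τ) a' a, haa,
    mul_one, pure, pure, mul_vecMulVec, mulVec_mulVec, mulVec_mulVec]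

/-- `SL` moves any pair of an orthogonal vector and covector to any other. -/
lemma exists_orth_pair (hκ : 3 ≤ Fintype.card κ) {w ψ w' ψ' : κ → F} (hw : w ≠ 0) (hψ : ψ ≠ 0)
    (h : w ⬝ᵥ ψ = 0) (hw' : w' ≠ 0) (hψ' : ψ' ≠ 0) (h' : w' ⬝ᵥ ψ' = 0) :
    ∃ b : Matrix κ κ F, b.det = 1 ∧ b *ᵥ w = w' ∧ ψ' ᵥ* b = ψ := by
  -- one step: move the vector with the covector fixed, or the covector with the vector fixed
  have dual : ∀ {P : Submodule F (κ → F)} {v : κ → F}, v ∉ P →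
      ∃ φ : κ → F, φ ⬝ᵥ v = 1 ∧ ∀ y ∈ P, φ ⬝ᵥ y = 0 := by
    intro P v hv
    obtain ⟨f, hf, hker⟩ := Submodule.exists_le_ker_of_notMem hv
    have key : ∀ x : κ → F, (fun i => (f v)⁻¹ * f (Pi.single i 1)) ⬝ᵥ x = (f v)⁻¹ * f x := by
      intro x
      conv_rhs => rw [pi_eq_sum_univ' x, map_sum]
      rw [dotProduct, Finset.mul_sum]
      exact Finset.sum_congr rfl fun i _ => by rw [map_smul, smul_eq_mul]; ring
    exact ⟨_, by rw [key, inv_mul_cancel₀ hf], fun y hy => by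
      rw [key, show f y = 0 from hker hy, mul_zero]⟩
  have out : ∀ s : Finset (κ → F), s.card < Fintype.card κ →
      ∃ z : κ → F, z ∉ Submodule.span F (s : Set (κ → F)) := by
    intro s hs
    by_contra! hc
    have h1 := finrank_span_finset_le_card (R := F) (M := κ → F) s
    rw [Set.finrank, show Submodule.span F (s : Set (κ → F)) = ⊤ from
      eq_top_iff.2 fun x _ => hc x, finrank_top, Module.finrank_pi] at h1
    omega
  -- move `u` to `v` by a transvection, independent case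
  have mv : ∀ u v : κ → F, u ≠ 0 → v ∉ Submodule.span F ({u} : Set (κ → F)) → ∃ b : Matrix κ κ F,
      b.det = 1 ∧ b *ᵥ u = v ∧ ∀ φ : κ → F, φ ⬝ᵥ u = φ ⬝ᵥ v → φ ᵥ* b = φ := by
    intro u v hu hv
    have hd : u ∉ Submodule.span F ({v - u} : Set (κ → F)) := by
      intro hm
      obtain ⟨c, hc⟩ := Submodule.mem_span_singleton.1 hm
      rcases eq_or_ne c 0 with rfl | hc0
      · exact hu (by simpa using hc.symm)
      · refine hv (Submodule.mem_span_singleton.2 ⟨c⁻¹ + 1, ?_⟩)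
        rw [add_smul, one_smul]
        nth_rewrite 1 [← hc]
        rw [inv_smul_smul₀ hc0, sub_add_cancel]
    obtain ⟨χ, h1, h2⟩ := dual hd
    refine ⟨1 + vecMulVec (v - u) χ, ?_, ?_, ?_⟩
    · rw [det_one_add_vecMulVec, h2 _ (Submodule.mem_span_singleton_self _), add_zero]
    · rw [add_mulVec, one_mulVec, vecMulVec_mulVec, h1]
      simp
    · intro φ hφ
      rw [vecMul_add, vecMul_one, vecMul_vecMulVec, dotProduct_sub, hφ, sub_self, zero_smul,
        add_zero]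
  -- adjust the covector with the vector fixed
  have mc : ∀ (v φ φ' : κ → F), φ ⬝ᵥ v = 0 → φ' ⬝ᵥ v = 0 → φ ≠ 0 →
      φ' ∉ Submodule.span F ({φ} : Set (κ → F)) → ∃ b : Matrix κ κ F,
      b.det = 1 ∧ b *ᵥ v = v ∧ φ ᵥ* b = φ' := by
    intro v φ φ' h1 h2 h3 h4
    have hd : φ ∉ Submodule.span F ({φ' - φ} : Set (κ → F)) := by
      intro hm
      obtain ⟨c, hc⟩ := Submodule.mem_span_singleton.1 hm
      rcases eq_or_ne c 0 with rfl | hc0
      · exact h3 (by simpa using hc.symm)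
      · refine h4 (Submodule.mem_span_singleton.2 ⟨c⁻¹ + 1, ?_⟩)
        rw [add_smul, one_smul]
        nth_rewrite 1 [← hc]
        rw [inv_smul_smul₀ hc0, sub_add_cancel]
    obtain ⟨z, e1, e2⟩ := dual hd
    refine ⟨1 + vecMulVec z (φ' - φ), ?_, ?_, ?_⟩
    · rw [det_one_add_vecMulVec, dotProduct_comm, e2 _ (Submodule.mem_span_singleton_self _),
        add_zero]
    · rw [add_mulVec, one_mulVec, vecMulVec_mulVec, sub_dotProduct, h1, h2, sub_zero]
      simp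
    · rw [vecMul_add, vecMul_one, vecMul_vecMulVec, dotProduct_comm φ z, e1, one_smul,
        add_sub_cancel]
  classical
  -- move the vector
  obtain ⟨z, hz⟩ := out {w, w'} (by have := Finset.card_le_two (a := w) (b := w'); omega)
  have hzw : z ∉ Submodule.span F ({w} : Set (κ → F)) := fun hm =>
    hz (Submodule.span_mono (by simp) hm)
  have hzw' : w' ∉ Submodule.span F ({z} : Set (κ → F)) := by
    intro hm
    obtain ⟨c, hc⟩ := Submodule.mem_span_singleton.1 hm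
    rcases eq_or_ne c 0 with rfl | hc0
    · exact hw' (by simpa using hc.symm)
    · refine hz (Submodule.span_mono (show ({w'} : Set (κ → F)) ⊆ _ by simp)
        (Submodule.mem_span_singleton.2 ⟨c⁻¹, ?_⟩))
      rw [← hc, inv_smul_smul₀ hc0]
  obtain ⟨b₁, hb₁, hb₁w, -⟩ := mv w z hw hzw
  obtain ⟨b₂, hb₂, hb₂z, -⟩ := mv z w' (fun h0 => hzw (h0 ▸ zero_mem _)) hzw'
  set B := b₂ * b₁
  have hB : B.det = 1 := by rw [det_mul, hb₁, hb₂, one_mul]
  have hBw : B *ᵥ w = w' := by rw [← mulVec_mulVec, hb₁w, hb₂z]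
  -- move the covector
  set ψ₁ := ψ ᵥ* B⁻¹
  have hBu : IsUnit B.det := by rw [hB]; exact isUnit_one
  have hψ₁w : ψ₁ ⬝ᵥ w' = 0 := by
    rw [← hBw, ← dotProduct_mulVec, mulVec_mulVec, nonsing_inv_mul B hBu, one_mulVec,
      dotProduct_comm, h]
  have hψ₁B : ψ₁ ᵥ* B = ψ := by rw [vecMul_vecMul, nonsing_inv_mul B hBu, vecMul_one]
  have hψ₁0 : ψ₁ ≠ 0 := fun h0 => hψ (by rw [← hψ₁B, h0, zero_vecMul])
  -- an intermediate covector killing `w'`
  obtain ⟨χ, hχw, hχ1, hχ2⟩ : ∃ χ : κ → F, χ ⬝ᵥ w' = 0 ∧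
      χ ∉ Submodule.span F ({ψ'} : Set (κ → F)) ∧ χ ∉ Submodule.span F ({ψ₁} : Set (κ → F)) := by
    by_contra! hc
    let f : (κ → F) →ₗ[F] F :=
      { toFun := fun χ => χ ⬝ᵥ w'
        map_add' := fun x y => add_dotProduct x y w'
        map_smul' := fun c x => smul_dotProduct c x w' }
    have hf := LinearMap.finrank_range_add_finrank_ker f
    have hr : Module.finrank F (LinearMap.range f) ≤ 1 :=
      (Submodule.finrank_le _).trans (Module.finrank_self F).le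
    have hkle : LinearMap.ker f ≤ Submodule.span F ({ψ'} : Set (κ → F)) ∨
        LinearMap.ker f ≤ Submodule.span F ({ψ₁} : Set (κ → F)) := by
      by_contra! hn
      obtain ⟨x, hx, hx'⟩ := SetLike.not_le_iff_exists.1 hn.1
      obtain ⟨y, hy, hy'⟩ := SetLike.not_le_iff_exists.1 hn.2
      have hx1 : x ∈ Submodule.span F ({ψ₁} : Set (κ → F)) := hc x hx hx'
      have hy1 : y ∈ Submodule.span F ({ψ'} : Set (κ → F)) := by
        by_contra h5; exact hy' (hc y hy h5)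
      have hxy : x + y ∈ Submodule.span F ({ψ₁} : Set (κ → F)) := by
        refine hc (x + y) (Submodule.add_mem (LinearMap.ker f) hx hy) fun h5 => hx' ?_
        simpa using Submodule.sub_mem _ h5 hy1
      exact hy' (by simpa using Submodule.sub_mem _ hxy hx1)
    rw [Module.finrank_pi] at hf
    rcases hkle with hk | hk <;>
    · have h1 := Submodule.finrank_mono hk
      rw [finrank_span_singleton (by first | exact hψ' | exact hψ₁0)] at h1
      omega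
  have hψ'0 : ψ' ⬝ᵥ w' = 0 := by rw [dotProduct_comm, h']
  have hnot : ψ₁ ∉ Submodule.span F ({χ} : Set (κ → F)) := by
    intro hm
    obtain ⟨c, hc⟩ := Submodule.mem_span_singleton.1 hm
    rcases eq_or_ne c 0 with rfl | hc0
    · exact hψ₁0 (by simpa using hc.symm)
    · exact hχ2 (Submodule.mem_span_singleton.2 ⟨c⁻¹, by rw [← hc, inv_smul_smul₀ hc0]⟩)
  obtain ⟨c₁, hc₁, hc₁w, hc₁ψ⟩ := mc w' ψ' χ hψ'0 hχw hψ' hχ1
  obtain ⟨c₂, hc₂, hc₂w, hc₂ψ⟩ := mc w' χ ψ₁ hχw hψ₁w (fun h0 => hχ1 (h0 ▸ zero_mem _)) hnot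
  refine ⟨c₁ * c₂ * B, by rw [det_mul, det_mul, hc₁, hc₂, hB, one_mul, one_mul], ?_, ?_⟩
  · rw [← mulVec_mulVec, hBw, ← mulVec_mulVec, hc₂w, hc₁w]
  · rw [← vecMul_vecMul ψ' (c₁ * c₂) B, ← vecMul_vecMul ψ' c₁ c₂, hc₁ψ, hc₂ψ, hψ₁B]

lemma isCoeff_of_inM (hM : ContainsSL M) (hκ : 3 ≤ Fintype.card κ) {τ : Matrix ι ι F}
    {w₀ ψ₀ : κ → F} (hw₀ : w₀ ≠ 0) (hψ₀ : ψ₀ ≠ 0) (h₀ : w₀ ⬝ᵥ ψ₀ = 0)
    (h : InM M (rootMap τ w₀ ψ₀)) : IsCoeff M τ := by
  intro w ψ hw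
  rcases eq_or_ne w 0 with rfl | hw0
  · exact InM.zero.congr fun X => by ext i j; simp [pure, vecMulVec_apply]
  rcases eq_or_ne ψ 0 with rfl | hψ0
  · exact InM.zero.congr fun X => by ext i j; simp [pure, vecMulVec_apply]
  obtain ⟨b, hb, hbw, hbψ⟩ := exists_orth_pair hκ hw₀ hψ₀ h₀ hw0 hψ0 hw
  obtain ⟨e, he, hey⟩ := hM.2 b hb
  refine (h.conj he).congr fun X => ?_
  have hX : e.symm X * bᵀ = X := by rw [← hey, e.apply_symm_apply]
  change pure (τ *ᵥ (X *ᵥ ψ)) w = e (pure (τ *ᵥ (e.symm X *ᵥ ψ₀)) w₀)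
  conv_lhs => rw [← hX]
  rw [hey, ← mulVec_mulVec, mulVec_transpose, hbψ, pure, pure, vecMulVec_mul,
    vecMul_transpose, hbw]

end CfsgLib.TensorMax
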