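import Cfsg.Agent.TensorMax.Member

/-!
If all coefficients of root elements in `M` are scalar then `M` carries members to members.
-/

set_option autoImplicit false

namespace CfsgLib.TensorMax

open Matrix Module

variable {F : Type*} [Field F] {ι κ : Type} [Fintype ι] [DecidableEq ι] [Fintype κ] [DecidableEq κ]
variable {M : Subgroup (Matrix ι κ F ≃ₗ[F] Matrix ι κ F)}

/-- All coefficients of root elements in `M` are scalar. -/
def OnlyScalars (M : Subgroup (Matrix ι κ F ≃ₗ[F] Matrix ι κ F)) : Prop :=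
  ∀ τ : Matrix ι ι F, IsCoeff M τ → ∃ c : F, τ = c • 1

lemma exists_ne_zero_orth_two (hκ : 3 ≤ Fintype.card κ) (a b : κ → F) :
    ∃ χ : κ → F, χ ≠ 0 ∧ a ⬝ᵥ χ = 0 ∧ b ⬝ᵥ χ = 0 := by
  classical
  obtain ⟨z, hz⟩ : ∃ z, z ∉ Submodule.span F ({a, b} : Set (κ → F)) := by
    by_contra! h
    have h1 := finrank_span_finset_le_card (R := F) (M := κ → F) {a, b}
    rw [Finset.coe_pair, Set.finrank,
      show Submodule.span F ({a, b} : Set (κ → F)) = ⊤ from eq_top_iff.2 fun x _ => h x,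
      finrank_top, Module.finrank_pi] at h1
    have := h1.trans Finset.card_le_two
    omega
  obtain ⟨χ, h1, h2⟩ := exists_covec hz
  refine ⟨χ, fun h => ?_, ?_, ?_⟩
  · rw [h, zero_dotProduct] at h1; exact zero_ne_one h1
  · rw [dotProduct_comm]; exact h2 a (Submodule.subset_span (by simp))
  · rw [dotProduct_comm]; exact h2 b (Submodule.subset_span (by simp))

lemma rootMap_pure (τ : Matrix ι ι F) (w ψ : κ → F) (u : ι → F) (b : κ → F) :
    rootMap τ w ψ (pure u b) = (b ⬝ᵥ ψ) • pure (τ *ᵥ u) w := by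
  rw [rootMap_apply, pure_mulVec, mulVec_smul, pure, pure, smul_vecMulVec]

/-- An element of `M` that is a transvection along a member has scalar coefficient. -/
lemma eq_rootMap [Nonempty ι] (hM : ContainsSL M) (hκ : 3 ≤ Fintype.card κ) (hsc : OnlyScalars M)
    {N : Matrix ι κ F →ₗ[F] Matrix ι κ F} (hN : InM M N) {w₀ : κ → F} (hw₀ : w₀ ≠ 0)
    (hr : ∀ X, N X ∈ memb w₀) (hk : ∀ u, N (pure u w₀) = 0) :
    ∃ γ : κ → F, w₀ ⬝ᵥ γ = 0 ∧ ∀ X, N X = pure (X *ᵥ γ) w₀ := by
  obtain ⟨η, hη⟩ := exists_dual hw₀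
  set L : Matrix ι κ F →ₗ[F] (ι → F) := colL η ∘ₗ N
  have hNL : ∀ X, N X = pure (L X) w₀ := fun X => by
    obtain ⟨z, hz⟩ := mem_memb.1 (hr X)
    simp only [L, LinearMap.comp_apply, colL_apply]
    rw [← hz, pure_mulVec, hη, one_smul]
  have hsq : ∀ X, N (N X) = 0 := fun X => by rw [hNL X, hk]
  have key : ∀ b : κ → F, ∃ c : F, ∀ u, L (pure u b) = c • u := by
    intro b
    obtain ⟨χ, hχ0, hχw, hχb⟩ := exists_ne_zero_orth_two hκ w₀ b
    have h0 : ∀ X, rootMap (1 : Matrix ι ι F) b χ (N X) = 0 := fun X => by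
      rw [hNL, rootMap_pure, hχw, zero_smul]
    have hc := hN.comm (inM_one hM hχb) hsq (rootMap_sq 1 hχb) h0
    set τ := LinearMap.toMatrix' (L ∘ₗ pureL b)
    have hcoef : InM M (rootMap τ w₀ χ) := hc.congr fun X => by
      simp only [LinearMap.comp_apply, rootMap_apply, one_mulVec, τ, LinearMap.toMatrix'_mulVec,
        pureL_apply, hNL]
    obtain ⟨c, hc⟩ := hsc τ (isCoeff_of_inM hM hκ hw₀ hχ0 hχw hcoef)
    refine ⟨c, fun u => ?_⟩
    have := LinearMap.toMatrix'_mulVec (L ∘ₗ pureL b) u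
    rw [show LinearMap.toMatrix' (L ∘ₗ pureL b) = c • 1 from hc, smul_mulVec, one_mulVec] at this
    simpa using this.symm
  choose c hc using key
  refine ⟨fun j => c (Pi.single j 1), ?_, fun X => ?_⟩
  · obtain ⟨u, hu⟩ := exists_ne (0 : ι → F)
    have h1 : L (pure u w₀) = 0 := by simp [L, hk]
    have hs : pure u w₀ = ∑ j, w₀ j • pure u (Pi.single j (1 : F)) := by
      ext i k; simp [Matrix.sum_apply, pure, vecMulVec_apply, Pi.single_apply, mul_comm]
    rw [hs, map_sum] at h1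
    simp only [map_smul, hc, smul_smul, ← Finset.sum_smul] at h1
    exact (smul_eq_zero.1 h1).resolve_right hu
  · rw [hNL]
    congr 1
    have hX : X = ∑ j, pure (X *ᵥ Pi.single j 1) (Pi.single j (1 : F)) := by
      ext i k
      simp [Matrix.sum_apply, pure, vecMulVec_apply, Pi.single_apply]
    conv_lhs => rw [hX, map_sum]
    simp only [hc]
    ext i
    simp [mulVec, dotProduct, mul_comm]

/-- An element stabilising a member relates the covectors orthogonal to it. -/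
lemma exists_orth_of_stab [Nonempty ι] (hM : ContainsSL M) (hκ : 3 ≤ Fintype.card κ)
    (hsc : OnlyScalars M) {e : Matrix ι κ F ≃ₗ[F] Matrix ι κ F} (he : e ∈ M) {w₀ : κ → F}
    (hw₀ : w₀ ≠ 0) {A : (ι → F) →ₗ[F] (ι → F)} (hA : ∀ u, e (pure u w₀) = pure (A u) w₀)
    {φ : κ → F} (hφ : w₀ ⬝ᵥ φ = 0) :
    ∃ ψ, w₀ ⬝ᵥ ψ = 0 ∧ ∀ X, e X *ᵥ φ = A (X *ᵥ ψ) := by
  have hAi : Function.Injective A := fun a b hab =>
    pureL_injective hw₀ (e.injective (by simp [hA, hab]))
  obtain ⟨ψ, hψ, hψe⟩ := eq_rootMap hM hκ hsc ((inM_one hM hφ).conj (M.inv_mem he)) hw₀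
    (fun X => by
      obtain ⟨z, hz⟩ := LinearMap.surjective_of_injective hAi ((e X) *ᵥ φ)
      refine mem_memb.2 ⟨z, ?_⟩
      change pure z w₀ = e.symm (rootMap 1 w₀ φ (e X))
      rw [rootMap_apply, one_mulVec, e.eq_symm_apply, hA, hz])
    (fun u => by
      change e.symm (rootMap 1 w₀ φ (e (pure u w₀))) = 0
      rw [hA, rootMap_pure, hφ, zero_smul, map_zero])
  refine ⟨ψ, hψ, fun X => ?_⟩
  have h := hψe X
  change e.symm (rootMap 1 w₀ φ (e X)) = _ at h
  rw [rootMap_apply, one_mulVec, e.symm_apply_eq, hA] at h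
  exact pureL_injective hw₀ h

/-- A transvection subspace meeting a stabilised member lies in it. -/
lemma range_le_memb [Nonempty ι] (hκ : 3 ≤ Fintype.card κ) (hικ : Fintype.card ι < Fintype.card κ)
    (hM : ContainsSL M) (hsc : OnlyScalars M) {N : Matrix ι κ F →ₗ[F] Matrix ι κ F}
    (hN : InM M N) (hsq : ∀ X, N (N X) = 0)
    (hrk : finrank F (LinearMap.range N) ≤ Fintype.card ι) {w₀ : κ → F} (hw₀ : w₀ ≠ 0)
    (hst : ∀ u, N (pure u w₀) ∈ memb w₀) (hmeet : LinearMap.range N ⊓ memb w₀ ≠ ⊥) :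
    LinearMap.range N ≤ memb w₀ := by
  obtain ⟨e, he, hey⟩ := hN
  obtain ⟨η, hη⟩ := exists_dual hw₀
  set A : (ι → F) →ₗ[F] (ι → F) := LinearMap.id + colL η ∘ₗ N ∘ₗ pureL w₀
  have hA : ∀ u, e (pure u w₀) = pure (A u) w₀ := fun u => by
    obtain ⟨z, hz⟩ := mem_memb.1 (hst u)
    simp only [A, LinearMap.add_apply, LinearMap.id_apply, LinearMap.comp_apply, colL_apply,
      pureL_apply]
    rw [hey, ← hz, pure_mulVec, hη, one_smul, pure, pure, pure, add_vecMulVec]
  choose ψ hψ hψe using fun φ : {φ : κ → F // w₀ ⬝ᵥ φ = 0} =>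
    exists_orth_of_stab hM hκ hsc he hw₀ hA φ.2
  set R := LinearMap.range N
  set Q : R →ₗ[F] Matrix ι κ F ⧸ memb w₀ := (memb w₀).mkQ ∘ₗ R.subtype
  have hQ : finrank F (LinearMap.range Q) < Fintype.card ι := by
    have h1 := LinearMap.finrank_range_add_finrank_ker Q
    have h2 : LinearMap.ker Q ≠ ⊥ := by
      obtain ⟨z, hz, hz0⟩ := Submodule.exists_mem_ne_zero_of_ne_bot hmeet
      intro hb
      have : (⟨z, hz.1⟩ : R) ∈ LinearMap.ker Q :=
        (Submodule.Quotient.mk_eq_zero (memb w₀)).2 hz.2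
      rw [hb, Submodule.mem_bot] at this
      exact hz0 (congrArg Subtype.val this)
    have h3 : 0 < finrank F (LinearMap.ker Q) :=
      Nat.pos_of_ne_zero fun h => h2 (Submodule.finrank_eq_zero.1 h)
    omega
  by_cases hAs : ∀ u, A u ∈ Submodule.span F ({u} : Set (ι → F))
  · obtain ⟨a, ha⟩ := eq_smul_one_of_forall_mem_span (LinearMap.toMatrix' A) fun u => by
      rw [LinearMap.toMatrix'_mulVec]; exact hAs u
    have hAa : ∀ u, A u = a • u := fun u => by
      rw [← LinearMap.toMatrix'_mulVec A, ha, smul_mulVec, one_mulVec]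
    rintro _ ⟨X, rfl⟩
    refine mem_memb_of_forall_orth hw₀ fun φ hφ => ?_
    set δ := a • ψ ⟨φ, hφ⟩ - φ
    have hNX : ∀ Y, N Y *ᵥ φ = Y *ᵥ δ := fun Y => by
      have h := hψe ⟨φ, hφ⟩ Y
      rw [hey, add_mulVec, hAa, ← mulVec_smul] at h
      rw [mulVec_sub, ← h, add_sub_cancel_left]
    rw [hNX]
    by_contra hne
    have hδ : δ ≠ 0 := fun h0 => hne (by rw [h0, mulVec_zero])
    obtain ⟨b, hb⟩ := exists_dual hδ
    -- `Z ↦ Z φ` maps the range onto `F^ι` and factors through the quotient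
    set P : Matrix ι κ F ⧸ memb w₀ →ₗ[F] (ι → F) := (memb w₀).liftQ (colL φ) fun Z hZ => by
      obtain ⟨z, rfl⟩ := mem_memb.1 hZ
      rw [LinearMap.mem_ker, colL_apply, pure_mulVec, hφ, zero_smul]
    have hsurj : (LinearMap.range Q).map P = ⊤ := eq_top_iff.2 fun u _ =>
      ⟨_, ⟨⟨N (pure u b), LinearMap.mem_range_self _ _⟩, rfl⟩, by
        change N (pure u b) *ᵥ φ = u
        rw [hNX, pure_mulVec, dotProduct_comm, hb, one_smul]⟩
    have h1 := Submodule.finrank_map_le P (LinearMap.range Q)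
    rw [hsurj, finrank_top, Module.finrank_pi] at h1
    omega
  · push Not at hAs
    obtain ⟨u, hu⟩ := hAs
    exfalso
    set Φ : (κ → F) →ₗ[F] Matrix ι κ F :=
      { toFun := fun b => N (pure u b)
        map_add' := fun x y => by rw [pure, vecMulVec_add, map_add]; rfl
        map_smul' := fun c x => by rw [pure, vecMulVec_smul, map_smul]; rfl }
    set Φ' : (κ → F) →ₗ[F] Matrix ι κ F ⧸ memb w₀ := (memb w₀).mkQ ∘ₗ Φ
    have hle : LinearMap.range Φ' ≤ LinearMap.range Q := by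
      rintro _ ⟨b, rfl⟩
      exact ⟨⟨N (pure u b), LinearMap.mem_range_self _ _⟩, rfl⟩
    have hker : LinearMap.ker Φ' ≤ Submodule.span F ({w₀} : Set (κ → F)) := by
      intro b hb
      obtain ⟨z, hz⟩ := mem_memb.1 ((Submodule.Quotient.mk_eq_zero (memb w₀)).1 hb)
      refine Submodule.mem_span_singleton.2
        ⟨b ⬝ᵥ η, (eq_smul_of_forall_orth hη fun φ hφ => ?_).symm⟩
      have h0 : N (pure u b) *ᵥ φ = 0 := by
        rw [show N (pure u b) = pure z w₀ from hz.symm, pure_mulVec, hφ, zero_smul]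
      have h := hψe ⟨φ, hφ⟩ (pure u b)
      rw [hey, add_mulVec, h0, add_zero, pure_mulVec, pure_mulVec, map_smul] at h
      by_cases hb0 : b ⬝ᵥ ψ ⟨φ, hφ⟩ = 0
      · have hu0 : u ≠ 0 := fun h0 => hu (by simp [h0])
        rw [hb0, zero_smul] at h
        exact (smul_eq_zero.1 h).resolve_right hu0
      · refine absurd (Submodule.mem_span_singleton.2
          ⟨(b ⬝ᵥ ψ ⟨φ, hφ⟩)⁻¹ * (b ⬝ᵥ φ), ?_⟩) hu
        rw [← smul_smul, h, inv_smul_smul₀ hb0]
    have h1 := LinearMap.finrank_range_add_finrank_ker Φ'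
    have h2 := Submodule.finrank_mono hle
    have h3 := Submodule.finrank_mono hker
    rw [finrank_span_singleton hw₀] at h3
    rw [Module.finrank_pi] at h1
    omega

end CfsgLib.TensorMax
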