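import Cfsg.Agent.TensorMax.Preserve
import Cfsg.Agent.TensorMax.Transvections

/-!
A group containing both special linear factors and some element not preserving the tensor
decomposition contains every elementary transvection.
-/

set_option autoImplicit false

namespace CfsgLib.TensorMax

open Matrix Module

variable {F : Type*} [Field F] [Finite F] {ι κ : Type} [Fintype ι] [DecidableEq ι] [Fintype κ]
  [DecidableEq κ] {M : Subgroup (Matrix ι κ F ≃ₗ[F] Matrix ι κ F)}

/-- The dichotomy. -/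
theorem preserves_or_inM_elemMap (hM : ContainsSL M) (hι : 2 ≤ Fintype.card ι)
    (hικ : Fintype.card ι < Fintype.card κ) (hq : 3 ≤ Nat.card F ∨ 3 ≤ Fintype.card ι) :
    (∀ g ∈ M, ∃ (a : Matrix ι ι F) (b : Matrix κ κ F), a.det ≠ 0 ∧ b.det ≠ 0 ∧
        ∀ X, g X = a * X * bᵀ) ∨
      ∀ (i : ι) (a : κ) (j : ι) (b : κ) (c : F), ¬(i = j ∧ a = b) →
        InM M (elemMap i a j b c) := by
  have hκ : 3 ≤ Fintype.card κ := by omega
  have : Nonempty ι := Fintype.card_pos_iff.1 (by omega)
  have : Nonempty κ := Fintype.card_pos_iff.1 (by omega)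
  by_cases hsc : OnlyScalars M
  · refine Or.inl fun g hg => ?_
    obtain ⟨a, b, hab⟩ := exists_mul_mul g fun w hw => by
      obtain ⟨v, hv⟩ := map_memb hM hκ hικ hsc hg hw
      exact ⟨v, fun u => hv ▸ ⟨pure u w, pure_mem_memb u w, rfl⟩⟩
    refine ⟨a, b, fun ha => ?_, fun hb => ?_, hab⟩
    · obtain ⟨z, hz, haz⟩ := Matrix.exists_mulVec_eq_zero_iff.2 ha
      obtain ⟨w, hw⟩ := exists_ne (0 : κ → F)
      refine hz ((pure_eq_zero_iff hw).1 (g.injective ?_))
      rw [hab, map_zero, pure, mul_vecMulVec, haz]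
      simp [vecMulVec_mul]
    · obtain ⟨z, hz, hbz⟩ := Matrix.exists_mulVec_eq_zero_iff.2 hb
      obtain ⟨u, hu⟩ := exists_ne (0 : ι → F)
      refine hu ((pure_eq_zero_iff hz).1 (g.injective ?_))
      rw [hab, map_zero, pure, mul_vecMulVec, vecMulVec_mul, vecMul_transpose, hbz]
      ext k l; simp [vecMulVec_apply]
  · simp only [OnlyScalars, not_forall, not_exists] at hsc
    obtain ⟨τ, hτ, hns⟩ := hsc
    exact Or.inr (inM_elemMap hM hκ hq hτ hns)

end CfsgLib.TensorMax
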